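import Mathlib
import Cfsg.Agent.Lib.Helper16.BRStmt2
import Cfsg.Agent.Lib.Helper87.BRMS
import Cfsg.Agent.Lib.CT.Wedderburn
import Cfsg.Agent.Lib.CT.Ops

set_option autoImplicit false

/-! Piece [MSG] of S0996 (Brauer, `n < (p + 3) / 2`): the multiplicities in the case `δ = -1`. -/

namespace Cfsg.Agent.Lib.Helper87.BGMSG

open Cfsg Cfsg.Agent.Lib.CT.ThirdMain Cfsg.Agent.Lib.Helper16.BRSpec
  Cfsg.Agent.Lib.Helper16.BRStmt2 Cfsg.Agent.Lib.CT.Wedderburn Cfsg.Agent.Lib.Helper87.BRMS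
open scoped ComplexConjugate

universe u

section Arith

theorem arithF {p u n : ℕ} (hu : 1 ≤ u) (hun : u ≤ n) (hn : 2 * n ≤ p + 1)
    (h : (1 + u * p) ∣ (p - 1) * (1 + n * p)) (hp : 1 ≤ p) : u = n := by
  by_contra hne
  have hlt : u < n := lt_of_le_of_ne hun hne
  have h1 : ((1 + u * p : ℕ) : ℤ) ∣ (((p - 1) * (1 + n * p) : ℕ) : ℤ) :=
    Int.natCast_dvd_natCast.mpr h
  have h2 : (1 + (u : ℤ) * p) ∣ ((u : ℤ) + 1) * ((n : ℤ) - u) := by
    have e1 : ((u : ℤ) + 1) * ((n : ℤ) - u) = (u : ℤ) ^ 2 * (((p : ℤ) - 1) * (1 + n * p))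
        - (1 + u * p) * (u * (n * p + 1) - n * (1 + u)) := by ring
    rw [e1]
    apply dvd_sub
    · apply Dvd.dvd.mul_left
      have e3 : (((p - 1) * (1 + n * p) : ℕ) : ℤ) = ((p : ℤ) - 1) * (1 + n * p) := by
        push_cast [Nat.cast_sub hp]; ring
      rw [← e3]
      have e2 : ((1 + u * p : ℕ) : ℤ) = 1 + (u : ℤ) * p := by push_cast; ring
      rw [← e2]; exact h1
    · exact dvd_mul_right _ _
  have hu' : (1 : ℤ) ≤ u := by exact_mod_cast hu
  have hlt' : (u : ℤ) < n := by exact_mod_cast hlt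
  have h3 : (0 : ℤ) < ((u : ℤ) + 1) * ((n : ℤ) - u) := by
    apply mul_pos
    · linarith
    · linarith
  have h4 := Int.le_of_dvd h3 h2
  have hn' : 2 * (n : ℤ) ≤ p + 1 := by exact_mod_cast hn
  have hp' : (1 : ℤ) ≤ p := by exact_mod_cast hp
  nlinarith [mul_nonneg (by linarith : (0 : ℤ) ≤ (u : ℤ) + 1)
      (by linarith : (0 : ℤ) ≤ (p : ℤ) + 1 - 2 * n),
    mul_nonneg (by linarith : (0 : ℤ) ≤ (u : ℤ) - 1) (by linarith : (0 : ℤ) ≤ (p : ℤ)),
    sq_nonneg (u : ℤ)]

theorem rel_div {e t τ α k : ℕ} (he : 0 < e)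
    (h : τ * (e * t) + (e * t) * α + e * k = e * t) : t * τ + t * α + k = t := by
  have h1 : e * (t * τ + t * α + k) = e * t := by rw [← h]; ring
  exact Nat.eq_of_mul_eq_mul_left he h1

theorem rel_cases {t α k : ℕ} (ht : 0 < t) (h : t * α + k = t) :
    (α = 0 ∧ k = t) ∨ (α = 1 ∧ k = 0) := by
  rcases Nat.eq_zero_or_pos α with h0 | h0
  · left
    subst h0
    rw [Nat.mul_zero, Nat.zero_add] at h
    exact ⟨rfl, h⟩
  · right
    have h1 : t ≤ t * α := Nat.le_mul_of_pos_right t h0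
    have h2 : t * α = t := by omega
    have h3 : k = 0 := by omega
    refine ⟨?_, h3⟩
    exact Nat.eq_of_mul_eq_mul_left ht (by rw [h2, Nat.mul_one])

theorem htf_arith {p e t n f c z : ℕ} (hpe : p = e * t + 1) (he : 2 ≤ e) (ht : 2 ≤ t)
    (hc : 1 ≤ c) (hfe : f + e = c * p) (hfd : f ∣ e * (1 + n * p)) (hn : 2 * n ≤ p + 1)
    (h : f * t + p * z = 1 + n * p) : t * f = 1 + n * p := by
  have h2 : p - 1 = t * e := by rw [hpe, Nat.add_sub_cancel, Nat.mul_comm]
  have h1 : t * f + (p - 1) = t * c * p := by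
    rw [h2, ← Nat.mul_add, hfe, Nat.mul_assoc]
  have htc : 2 ≤ t * c := by
    calc 2 ≤ t := ht
      _ = t * 1 := (Nat.mul_one t).symm
      _ ≤ t * c := Nat.mul_le_mul_left t hc
  obtain ⟨u, hu⟩ : ∃ u, t * c = u + 1 := ⟨t * c - 1, by omega⟩
  have hp1 : 1 ≤ p := by omega
  have h3 : t * f = 1 + u * p := by
    rw [hu] at h1
    have : (u + 1) * p = u * p + p := by ring
    omega
  have hu1 : 1 ≤ u := by omega
  have hun : u ≤ n := by
    have h4 : f * t = t * f := Nat.mul_comm _ _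
    have h5 : u * p ≤ n * p := by omega
    exact Nat.le_of_mul_le_mul_right h5 (by omega)
  have hdvd : (1 + u * p) ∣ (p - 1) * (1 + n * p) := by
    rw [← h3, h2, Nat.mul_assoc]
    exact Nat.mul_dvd_mul_left t hfd
  have h6 := arithF hu1 hun hn hdvd hp1
  rw [h3, h6]

end Arith

theorem main : Cfsg.Agent.Lib.Helper16.BRStmt2.MsgOfTab.{u} := by
  intro G _ _ p _ P e t n a b f A B Y hT y ω mult hR hRS hmB hn2
  classical
  have hp : p.Prime := Fact.out
  have : Finite (IrrCharacter G) := finite_irrCharacter G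
  let _ : Fintype (IrrCharacter G) := Fintype.ofFinite _
  have he := hT.he
  have ht := hT.ht
  have hpe := hT.hpe
  have hf : 0 < f := hT.hf0
  have hn1 := hT.hn1
  have hcardP : Nat.card (P : Subgroup G) = p := hT.hP
  have ht1 : ∀ g : G, ((triv G : IrrCharacter G) : G → ℂ) g = 1 := fun g => by rw [coe_triv]
  have hd : ∀ χ : IrrCharacter G, (χ : G → ℂ) 1 = (charDegree (χ : G → ℂ) : ℂ) := fun χ =>
    (char_natCast_charDegree (isCharacter_of_irr χ.2)).symm
  -- the row sums of the multiplicities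
  obtain ⟨s, hs⟩ : ∃ s : IrrCharacter G → ℕ, ∀ χ, s χ = ∑ i ∈ Finset.range e, mult χ i :=
    ⟨_, fun _ => rfl⟩
  have hr2 : ∀ χ : IrrCharacter G, ((p * s χ : ℕ) : ℂ) =
      (χ : G → ℂ) 1 + ∑ᶠ z ∈ (((P : Subgroup G) : Set G) \ {1}), (χ : G → ℂ) z := by
    intro χ
    rw [← finsum_P_split, ← hR.r2 χ, hs χ]
    push_cast
    ring
  have hs_triv : s (triv G) = 1 := by
    have h := hr2 (triv G)
    rw [finsum_P_const (P : Subgroup G) _ 1 (fun z _ _ => ht1 z), hcardP, ht1] at h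
    have h' : ((p * s (triv G) : ℕ) : ℂ) = ((1 + (p - 1) : ℕ) : ℂ) := by
      rw [h]; push_cast; ring
    have h2 : p * s (triv G) = 1 + (p - 1) := Nat.cast_injective h'
    have h3 : p * s (triv G) = p * 1 := by have := hp.pos; omega
    exact Nat.eq_of_mul_eq_mul_left hp.pos h3
  have hs_Y : ∀ θ ∈ Y, p * s θ = f + e := by
    intro θ hθ
    have h := hr2 θ
    rw [hT.hYs θ hθ, hT.hY1 θ hθ] at h
    have h' : ((p * s θ : ℕ) : ℂ) = ((f + e : ℕ) : ℂ) := by
      rw [h]; push_cast; ring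
    exact Nat.cast_injective h'
  have hs_Z : ∀ χ ∈ Zset A B Y, charDegree (χ : G → ℂ) = p * s χ := by
    intro χ hχ
    have h := hr2 χ
    rw [finsum_P_const (P : Subgroup G) _ 0 (hT.hZ χ hχ), hd χ] at h
    have h' : ((p * s χ : ℕ) : ℂ) = ((charDegree (χ : G → ℂ) : ℕ) : ℂ) := by
      rw [h]; ring
    exact (Nat.cast_injective h').symm
  have hle : ∀ χ : IrrCharacter G, ∀ i, i < e → mult χ i ≤ s χ := by
    intro χ i hi
    rw [hs]
    exact Finset.single_le_sum (f := mult χ) (fun j _ => Nat.zero_le _) (Finset.mem_range.mpr hi)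
  -- the trivial character
  have hmT : ∀ i, i < e → mult (triv G) i = if i = 0 then 1 else 0 := by
    obtain ⟨i0, hi0, hm1, hm0⟩ := unit_sum (m := mult (triv G)) (by rw [← hs]; exact hs_triv)
    have h3 := hR.r3 (triv G) 1 (by norm_num) (by omega)
    rw [ht1, Finset.sum_eq_single i0
      (fun i hi hne => by rw [hm0 i (Finset.mem_range.mp hi) hne]; simp)
      (fun h => absurd (Finset.mem_range.mpr hi0) h), hm1] at h3
    have h4 : ω ^ i0 = 1 := by simpa using h3.symm
    have h5 : e ∣ i0 := (hR.hω.pow_eq_one_iff_dvd i0).mp h4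
    have h6 : i0 = 0 := Nat.eq_zero_of_dvd_of_lt h5 hi0
    subst h6
    intro i hi
    split_ifs with h
    · rw [h]; exact hm1
    · exact hm0 i hi h
  -- the sums over `P \ {1}`
  obtain ⟨σ, hσ⟩ : ∃ σ : IrrCharacter G → ℂ, ∀ χ, σ χ =
      ∑ᶠ z ∈ (((P : Subgroup G) : Set G) \ {1}), (χ : G → ℂ) z := ⟨_, fun _ => rfl⟩
  have hsum : ∀ i, i < e →
      ∑ χ : IrrCharacter G, (mult χ i : ℂ) * σ χ = ((p - 1 : ℕ) : ℂ) := by
    intro i hi
    have hfin : (((P : Subgroup G) : Set G) \ {1}).Finite := Set.toFinite _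
    have h1 : ∑ᶠ z ∈ (((P : Subgroup G) : Set G) \ {1}),
        ∑ χ : IrrCharacter G, (mult χ i : ℂ) * (χ : G → ℂ) z = ((p - 1 : ℕ) : ℂ) := by
      rw [finsum_P_const (P : Subgroup G) _ 1
        (fun z hz hz1 => by rw [← finsum_eq_sum_of_fintype]; exact hRS i hi z hz hz1),
        hcardP, mul_one]
    rw [← h1, finsum_mem_eq_finite_toFinset_sum _ hfin, Finset.sum_comm]
    apply Finset.sum_congr rfl
    intro χ _
    rw [hσ, finsum_mem_eq_finite_toFinset_sum _ hfin, Finset.mul_sum]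
  obtain ⟨σN, hσN⟩ : ∃ σN : IrrCharacter G → ℕ, ∀ χ, σN χ =
      if χ = triv G then p - 1 else if χ ∈ A then p - 1 else if χ ∈ Y then e else 0 :=
    ⟨_, fun _ => rfl⟩
  have hσcast : ∀ χ : IrrCharacter G, ∀ i, i < e →
      (mult χ i : ℂ) * σ χ = ((mult χ i * σN χ : ℕ) : ℂ) := by
    intro χ i hi
    by_cases h1 : χ = triv G
    · rw [hσN, if_pos h1, hσ, h1,
        finsum_P_const (P : Subgroup G) _ 1 (fun z _ _ => ht1 z), hcardP]
      push_cast; ring
    by_cases h2 : χ ∈ A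
    · rw [hσN, if_neg h1, if_pos h2, hσ,
        finsum_P_const (P : Subgroup G) _ 1 (hT.hA χ h2).2, hcardP]
      push_cast; ring
    by_cases h3 : χ ∈ B
    · rw [hmB χ h3 i hi]; simp
    by_cases h4 : χ ∈ Y
    · rw [hσN, if_neg h1, if_neg h2, if_pos h4, hσ, hT.hYs χ h4]
      push_cast; ring
    · rw [hσN, if_neg h1, if_neg h2, if_neg h4, hσ,
        finsum_P_const (P : Subgroup G) _ 0 (hT.hZ χ ⟨h1, h2, h3, h4⟩)]
      push_cast; ring
  have hsumN : ∀ i, i < e → ∑ χ : IrrCharacter G, mult χ i * σN χ = p - 1 := by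
    intro i hi
    have h := hsum i hi
    have h' : ((∑ χ : IrrCharacter G, mult χ i * σN χ : ℕ) : ℂ) = ((p - 1 : ℕ) : ℂ) := by
      rw [← h, Nat.cast_sum]
      exact Finset.sum_congr rfl (fun χ _ => (hσcast χ i hi).symm)
    exact Nat.cast_injective h'
  obtain ⟨α, hα⟩ : ∃ α : ℕ → ℕ, ∀ i, α i = ∑ χ : IrrCharacter G, (if χ ∈ A then mult χ i else 0) :=
    ⟨_, fun _ => rfl⟩
  obtain ⟨k, hk⟩ : ∃ k : ℕ → ℕ, ∀ i, k i = ∑ χ : IrrCharacter G, (if χ ∈ Y then mult χ i else 0) :=
    ⟨_, fun _ => rfl⟩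
  obtain ⟨z, hz⟩ : ∃ z : ℕ → ℕ, ∀ i, z i =
      ∑ χ : IrrCharacter G, (if χ ∈ Zset A B Y then mult χ i * s χ else 0) := ⟨_, fun _ => rfl⟩
  have hpm : p - 1 = e * t := by rw [hpe, Nat.add_sub_cancel]
  have hrel : ∀ i, i < e → t * (if i = 0 then 1 else 0) + t * α i + k i = t := by
    intro i hi
    have h := hsumN i hi
    rw [sum_partition (triv G) A B Y (Zset A B Y) hT.htA hT.htB hT.htY hT.hAB hT.hAY hT.hBY
      (fun χ => Iff.rfl)] at h
    have e0 : mult (triv G) i * σN (triv G) = (if i = 0 then 1 else 0) * (e * t) := by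
      rw [hσN, if_pos rfl, hmT i hi, hpm]
    have eA : ∑ χ : IrrCharacter G, (if χ ∈ A then mult χ i * σN χ else 0) =
        (e * t) * α i := by
      rw [hα, Finset.mul_sum]
      apply Finset.sum_congr rfl
      intro χ _
      split_ifs with hχ
      · rw [hσN, if_neg (fun h : χ = triv G => hT.htA (h ▸ hχ)), if_pos hχ, hpm, Nat.mul_comm]
      · rw [Nat.mul_zero]
    have eB : ∑ χ : IrrCharacter G, (if χ ∈ B then mult χ i * σN χ else 0) = 0 := by
      apply Finset.sum_eq_zero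
      intro χ _
      split_ifs with hχ
      · rw [hmB χ hχ i hi, Nat.zero_mul]
      · rfl
    have eY : ∑ χ : IrrCharacter G, (if χ ∈ Y then mult χ i * σN χ else 0) = e * k i := by
      rw [hk, Finset.mul_sum]
      apply Finset.sum_congr rfl
      intro χ _
      split_ifs with hχ
      · rw [hσN, if_neg (fun h : χ = triv G => hT.htY (h ▸ hχ)),
          if_neg (fun h => Set.disjoint_left.mp hT.hAY h hχ), if_pos hχ, Nat.mul_comm]
      · rw [Nat.mul_zero]
    have eZ : ∑ χ : IrrCharacter G, (if χ ∈ Zset A B Y then mult χ i * σN χ else 0) = 0 := by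
      apply Finset.sum_eq_zero
      intro χ _
      split_ifs with hχ
      · rw [hσN, if_neg hχ.1, if_neg hχ.2.1, if_neg hχ.2.2.2, Nat.mul_zero]
      · rfl
    rw [e0, eA, eB, eY, eZ, hpm, Nat.add_zero, Nat.add_zero] at h
    exact rel_div (by omega) h
  have hα0 : α 0 = 0 := by
    have h := hrel 0 (by omega)
    rw [if_pos rfl, Nat.mul_one] at h
    have h1 : t * α 0 = 0 := by omega
    rcases Nat.mul_eq_zero.mp h1 with h2 | h2
    · omega
    · exact h2
  have hk0 : k 0 = 0 := by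
    have h := hrel 0 (by omega)
    rw [if_pos rfl, Nat.mul_one] at h
    omega
  have hpos : ∀ i, 0 < i → i < e → (α i = 0 ∧ k i = t) ∨ (α i = 1 ∧ k i = 0) := by
    intro i hi0 hi
    have h := hrel i hi
    rw [if_neg (by omega), Nat.mul_zero, Nat.zero_add] at h
    exact rel_cases (by omega) h
  obtain ⟨I, hI⟩ : ∃ I : Finset ℕ, I = (Finset.range e).filter (fun i => 0 < i ∧ α i = 0) :=
    ⟨_, rfl⟩
  have hImem : ∀ i, i ∈ I ↔ (i < e ∧ 0 < i ∧ α i = 0) := by
    intro i
    rw [hI, Finset.mem_filter, Finset.mem_range]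
  have hIsub : I ⊆ Finset.range e := by
    intro i hi
    exact Finset.mem_range.mpr ((hImem i).mp hi).1
  have hk_val : ∀ i, i < e → k i = if i ∈ I then t else 0 := by
    intro i hi
    by_cases h0 : i = 0
    · rw [if_neg (fun h => by have := ((hImem i).mp h).2.1; omega), h0, hk0]
    · rcases hpos i (Nat.pos_of_ne_zero h0) hi with h | h
      · rw [if_pos ((hImem i).mpr ⟨hi, Nat.pos_of_ne_zero h0, h.1⟩)]; exact h.2
      · rw [if_neg (fun h' => by have := ((hImem i).mp h').2.2; omega)]; exact h.2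
  have hcardY : ∑ χ : IrrCharacter G, (if χ ∈ Y then 1 else 0) = t := by
    rw [sum_ind_eq_ncard, hT.cY]
  have hk_sum : p * ∑ i ∈ Finset.range e, k i = t * (f + e) := by
    have h1 : ∑ i ∈ Finset.range e, k i =
        ∑ i ∈ Finset.range e, ∑ χ : IrrCharacter G, (if χ ∈ Y then mult χ i else 0) :=
      Finset.sum_congr rfl (fun i _ => hk i)
    rw [h1, Finset.sum_comm, Finset.mul_sum, ← hcardY, Finset.sum_mul]
    apply Finset.sum_congr rfl
    intro χ _
    by_cases hχ : χ ∈ Y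
    · simp only [if_pos hχ]
      rw [← hs, hs_Y χ hχ, Nat.one_mul]
    · simp only [if_neg hχ]
      rw [Finset.sum_const_zero, Nat.mul_zero, Nat.zero_mul]
  have hk_sum2 : ∑ i ∈ Finset.range e, k i = I.card * t := by
    rw [Finset.sum_congr rfl (fun i hi => hk_val i (Finset.mem_range.mp hi)),
      Finset.sum_ite_mem, Finset.inter_eq_right.mpr hIsub, Finset.sum_const, smul_eq_mul]
  have hfeI : f + e = I.card * p := by
    rw [hk_sum2] at hk_sum
    have h1 : t * (f + e) = t * (I.card * p) := by rw [← hk_sum]; ring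
    exact Nat.eq_of_mul_eq_mul_left (by omega) h1
  have hIne : I.Nonempty := by
    rw [← Finset.card_pos]
    by_contra h0
    have h1 : I.card = 0 := by omega
    rw [h1, Nat.zero_mul] at hfeI
    omega
  -- the degree equation
  have hidx : (Subgroup.normalizer ((P : Subgroup G) : Set G)).index = 1 + n * p := by
    have h := Subgroup.card_mul_index (Subgroup.normalizer ((P : Subgroup G) : Set G))
    rw [hT.hN, hT.hG] at h
    have hpe0 : 0 < p * e := Nat.mul_pos hp.pos (by omega)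
    exact Nat.eq_of_mul_eq_mul_left hpe0 (by rw [h]; ring)
  have hR1 : ∀ i, i < e →
      ∑ χ : IrrCharacter G, mult χ i * charDegree (χ : G → ℂ) = 1 + n * p := by
    intro i hi
    have h := hR.r1 i hi
    rw [finsum_eq_sum_of_fintype, hidx] at h
    have h' : ((∑ χ : IrrCharacter G, mult χ i * charDegree (χ : G → ℂ) : ℕ) : ℂ) =
        ((1 + n * p : ℕ) : ℂ) := by
      rw [← h, Nat.cast_sum]
      apply Finset.sum_congr rfl
      intro χ _
      rw [Nat.cast_mul, hd χ]
    exact Nat.cast_injective h'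
  have hdT : charDegree ((triv G : IrrCharacter G) : G → ℂ) = 1 :=
    charDegree_eq_of_apply_one (n := 1) (by rw [ht1]; simp)
  have hstar : ∀ i, i < e →
      (if i = 0 then 1 else 0) + (1 + n * p) * α i + f * k i + p * z i = 1 + n * p := by
    intro i hi
    have h := hR1 i hi
    rw [sum_partition (triv G) A B Y (Zset A B Y) hT.htA hT.htB hT.htY hT.hAB hT.hAY hT.hBY
      (fun χ => Iff.rfl)] at h
    have e0 : mult (triv G) i * charDegree ((triv G : IrrCharacter G) : G → ℂ) =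
        if i = 0 then 1 else 0 := by rw [hdT, Nat.mul_one, hmT i hi]
    have eA : ∑ χ : IrrCharacter G, (if χ ∈ A then mult χ i * charDegree (χ : G → ℂ) else 0) =
        (1 + n * p) * α i := by
      rw [hα, Finset.mul_sum]
      apply Finset.sum_congr rfl
      intro χ _
      split_ifs with hχ
      · rw [charDegree_eq_of_apply_one (hT.hA χ hχ).1, Nat.mul_comm]
      · rw [Nat.mul_zero]
    have eB : ∑ χ : IrrCharacter G, (if χ ∈ B then mult χ i * charDegree (χ : G → ℂ) else 0) =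
        0 := by
      apply Finset.sum_eq_zero
      intro χ _
      split_ifs with hχ
      · rw [hmB χ hχ i hi, Nat.zero_mul]
      · rfl
    have eY : ∑ χ : IrrCharacter G, (if χ ∈ Y then mult χ i * charDegree (χ : G → ℂ) else 0) =
        f * k i := by
      rw [hk, Finset.mul_sum]
      apply Finset.sum_congr rfl
      intro χ _
      split_ifs with hχ
      · rw [charDegree_eq_of_apply_one (hT.hY1 χ hχ), Nat.mul_comm]
      · rw [Nat.mul_zero]
    have eZ : ∑ χ : IrrCharacter G,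
        (if χ ∈ Zset A B Y then mult χ i * charDegree (χ : G → ℂ) else 0) = p * z i := by
      rw [hz, Finset.mul_sum]
      apply Finset.sum_congr rfl
      intro χ _
      split_ifs with hχ
      · rw [hs_Z χ hχ]; ring
      · rw [Nat.mul_zero]
    rw [e0, eA, eB, eY, eZ] at h
    omega
  -- `t f = 1 + n p`
  have htf : t * f = 1 + n * p := by
    obtain ⟨i, hi⟩ := hIne
    obtain ⟨hie, hi0, hαi⟩ := (hImem i).mp hi
    have h := hstar i hie
    rw [if_neg (by omega), hαi, hk_val i hie, if_pos hi, Nat.mul_zero, Nat.zero_add] at h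
    exact htf_arith hpe he ht (Finset.card_pos.mpr ⟨i, hi⟩) hfeI hT.hfdvd hn2 h
  have hz0 : z 0 = n := by
    have h := hstar 0 (by omega)
    rw [if_pos rfl, hα0, hk0] at h
    simp only [Nat.mul_zero, Nat.add_zero] at h
    have h1 : p * z 0 = p * n := by rw [Nat.mul_comm p n]; omega
    exact Nat.eq_of_mul_eq_mul_left hp.pos h1
  have hzpos : ∀ i, 0 < i → i < e → z i = 0 := by
    intro i h0 hi
    have h := hstar i hi
    rw [if_neg (by omega), Nat.zero_add] at h
    have h1 : p * z i = 0 := by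
      rcases hpos i h0 hi with h' | h'
      · rw [h'.1, h'.2, Nat.mul_comm f t, htf] at h
        simp only [Nat.mul_zero, Nat.zero_add] at h
        omega
      · rw [h'.1, h'.2] at h
        simp only [Nat.mul_zero, Nat.mul_one, Nat.add_zero] at h
        omega
    rcases Nat.mul_eq_zero.mp h1 with h2 | h2
    · exact absurd h2 hp.pos.ne'
    · exact h2
  have hmZ : ∀ χ ∈ Zset A B Y, ∀ i, i < e → mult χ i = if i = 0 then s χ else 0 := by
    intro χ hχ
    have hzero : ∀ i, i < e → i ≠ 0 → mult χ i = 0 := by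
      intro i hi hne
      have := hzpos i (Nat.pos_of_ne_zero hne) hi
      rw [hz] at this
      have h2 := Finset.sum_eq_zero_iff.mp this χ (Finset.mem_univ _)
      rw [if_pos hχ] at h2
      rcases Nat.mul_eq_zero.mp h2 with h | h
      · exact h
      · have := hle χ i hi; omega
    have h0 : mult χ 0 = s χ := by
      rw [hs χ, Finset.sum_eq_single 0 (fun i hi hne => hzero i (Finset.mem_range.mp hi) hne)
        (fun h => absurd (Finset.mem_range.mpr (by omega)) h)]
    intro i hi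
    split_ifs with h
    · rw [h]; exact h0
    · exact hzero i hi h
  have hmdeg : ∀ χ ∈ Zset A B Y, mdeg p χ = s χ := by
    intro χ hχ
    unfold mdeg
    rw [hs_Z χ hχ, Nat.mul_div_cancel_left _ hp.pos]
  have hmultA : ∀ i, α i = 0 → ∀ χ ∈ A, mult χ i = 0 := by
    intro i hi χ hχ
    have h2 := Finset.sum_eq_zero_iff.mp ((hα i).symm.trans hi) χ (Finset.mem_univ _)
    rwa [if_pos hχ] at h2
  -- the conjugate of a character of `A` is in `A`
  have hconjA : ∀ χ ∈ A, ∃ χ' ∈ A, ∀ g, (χ : G → ℂ) g = conj ((χ' : G → ℂ) g) := by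
    intro χ hχ
    have hχc : IsCharacter G (χ : G → ℂ) := isCharacter_of_irr χ.2
    obtain ⟨χ', hχ'⟩ : ∃ χ' : IrrCharacter G, ∀ g, (χ' : G → ℂ) g = conj ((χ : G → ℂ) g) :=
      ⟨⟨fun g => (χ : G → ℂ) g⁻¹, Cfsg.Agent.Lib.CT.Ops.isIrrCharacter_inv_arg χ.2⟩,
        fun g => char_apply_inv hχc g⟩
    have h1 : (χ' : G → ℂ) 1 = ((1 + n * p : ℕ) : ℂ) := by
      rw [hχ', (hT.hA χ hχ).1]; simp
    have hdeg : charDegree (χ' : G → ℂ) = 1 + n * p := charDegree_eq_of_apply_one h1
    refine ⟨χ', ?_, fun g => by rw [hχ']; simp⟩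
    by_contra hA
    have hnp : p ≤ n * p := Nat.le_mul_of_pos_left p (by omega)
    have hp2 := hp.two_le
    by_cases h2 : χ' = triv G
    · rw [h2, hdT] at hdeg; omega
    by_cases h3 : χ' ∈ B
    · have := charDegree_eq_of_apply_one (hT.hB χ' h3).1
      omega
    by_cases h4 : χ' ∈ Y
    · have h5 := charDegree_eq_of_apply_one (hT.hY1 χ' h4)
      have h6 : 2 * f ≤ t * f := Nat.mul_le_mul_right f ht
      omega
    · have h5 := hs_Z χ' ⟨h2, hA, h3, h4⟩
      have h6 : p ∣ 1 + n * p := ⟨s χ', by rw [← h5, hdeg]⟩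
      have h7 : p ∣ 1 := (Nat.dvd_add_left (Dvd.intro_left n rfl)).mp h6
      have := Nat.le_of_dvd Nat.one_pos h7
      omega
  refine ⟨htf, hmT, hmB, hmultA 0 hα0, ?_, ?_, ?_, ⟨I, ?_, ?_, hfeI⟩⟩
  · intro θ hθ
    have h2 := Finset.sum_eq_zero_iff.mp ((hk 0).symm.trans hk0) θ (Finset.mem_univ _)
    rwa [if_pos hθ] at h2
  · intro χ hχ
    refine ⟨?_, ?_⟩
    · rw [hd χ, hmdeg χ hχ, hs_Z χ hχ, Nat.mul_comm]
    · rw [hmdeg χ hχ]; exact hmZ χ hχ
  · rw [finsum_mem_eq_sum_ite, ← hz0, hz]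
    apply Finset.sum_congr rfl
    intro χ _
    split_ifs with hχ
    · rw [hmdeg χ hχ, hmZ χ hχ 0 (by omega), if_pos rfl, pow_two]
    · rfl
  · intro i hi
    exact ⟨((hImem i).mp hi).2.1, ((hImem i).mp hi).1⟩
  · intro i hi
    obtain ⟨hie, hi0, hαi⟩ := (hImem i).mp hi
    refine (hImem (e - i)).mpr ⟨by omega, by omega, ?_⟩
    rw [hα]
    apply Finset.sum_eq_zero
    intro χ _
    split_ifs with hχ
    · obtain ⟨χ', hχ'A, hχ'⟩ := hconjA χ hχ
      have h4 := hR.r4 χ' χ hχ' i hie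
      rw [Nat.mod_eq_of_lt (by omega), hmultA i hαi χ' hχ'A] at h4
      exact h4
    · rfl

end Cfsg.Agent.Lib.Helper87.BGMSG
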