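import Mathlib
import Cfsg.Agent.Lib.Helper74.DixStmt

/-!
S4472 piece GRPB: the group `L = P₀ K`.
-/

set_option autoImplicit false

namespace Cfsg.Agent.Lib.Helper87.DixGRPB

open Cfsg Cfsg.Agent.Lib.Helper74.DixStmt

universe u

theorem main : GrpB.{u} := by
  intro G _ _ p hp K P₀ hKp hP hPK
  have hpp : p.Prime := hp.out
  haveI hKLn : (K.subgroupOf (P₀ ⊔ K)).Normal :=
    Subgroup.normal_subgroupOf_sup_of_le_normalizer hPK
  haveI hKPn : (K.subgroupOf P₀).Normal := Subgroup.normal_subgroupOf_of_le_normalizer hPK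
  have hKP : K ⊓ P₀ = ⊥ := Subgroup.inf_eq_bot_of_coprime (by
    obtain ⟨a, ha⟩ := hP.exists_card_eq
    rw [ha]; exact Nat.Coprime.pow_right a hKp)
  have hidx : (K.subgroupOf (P₀ ⊔ K)).index = Nat.card P₀ := by
    have e := QuotientGroup.quotientInfEquivProdNormalizerQuotient P₀ K hPK
    have h1 : (K.subgroupOf (P₀ ⊔ K)).index = (K.subgroupOf P₀).index :=
      (Nat.card_congr e.toEquiv).symm
    rw [h1]
    have h2 : K.relIndex P₀ = Nat.card P₀ := by
      rw [← Subgroup.inf_relIndex_right, hKP, Subgroup.relIndex_bot_left]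
    exact h2
  have hcardKL : Nat.card (K.subgroupOf (P₀ ⊔ K)) = Nat.card K :=
    Nat.card_congr (Subgroup.subgroupOfEquivOfLe (le_sup_right : K ≤ P₀ ⊔ K)).toEquiv
  have hcardL : Nat.card K * Nat.card P₀ = Nat.card (P₀ ⊔ K : Subgroup G) := by
    rw [← hcardKL, ← hidx]; exact Subgroup.card_mul_index _
  refine ⟨P₀ ⊔ K, le_sup_right, hKLn, ?_, ?_⟩
  · obtain ⟨a, ha⟩ := hP.exists_card_eq
    exact ⟨a, hidx.trans ha⟩
  · intro N hN hNK
    have hcomm : ∀ n ∈ N, ∀ k ∈ K.subgroupOf (P₀ ⊔ K), n * k = k * n := by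
      intro n hn k hk
      have h1 : n * k * n⁻¹ * k⁻¹ ∈ N ⊓ K.subgroupOf (P₀ ⊔ K) := by
        refine Subgroup.mem_inf.mpr ⟨?_, ?_⟩
        · have h3 : k * n⁻¹ * k⁻¹ ∈ N := hN.conj_mem _ (N.inv_mem hn) k
          have h2 : n * (k * n⁻¹ * k⁻¹) ∈ N := N.mul_mem hn h3
          simpa [mul_assoc] using h2
        · have h3 : n * k * n⁻¹ ∈ K.subgroupOf (P₀ ⊔ K) := hKLn.conj_mem _ hk n
          exact Subgroup.mul_mem _ h3 (Subgroup.inv_mem _ hk)
      rw [hNK, Subgroup.mem_bot] at h1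
      calc n * k = (n * k * n⁻¹ * k⁻¹) * (k * n) := by group
        _ = k * n := by rw [h1, one_mul]
    have hNdvd : Nat.card N ∣ Nat.card P₀ := by
      let f : N →* (↥(P₀ ⊔ K) ⧸ K.subgroupOf (P₀ ⊔ K)) :=
        (QuotientGroup.mk' _).comp N.subtype
      have hf : Function.Injective f := by
        rw [injective_iff_map_eq_one]
        intro n hn
        have h1 : (n : ↥(P₀ ⊔ K)) ∈ K.subgroupOf (P₀ ⊔ K) :=
          (QuotientGroup.eq_one_iff _).mp hn
        have h2 : (n : ↥(P₀ ⊔ K)) ∈ N ⊓ K.subgroupOf (P₀ ⊔ K) :=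
          Subgroup.mem_inf.mpr ⟨n.2, h1⟩
        rw [hNK, Subgroup.mem_bot] at h2
        exact Subtype.ext h2
      have h3 := Subgroup.card_dvd_of_injective f hf
      rw [← hidx]
      exact h3
    have hNp : IsPGroup p N := by
      obtain ⟨a, ha⟩ := hP.exists_card_eq
      rw [ha] at hNdvd
      obtain ⟨b, hb, hb'⟩ := (Nat.dvd_prime_pow hpp).mp hNdvd
      exact IsPGroup.of_card hb'
    have hPL : IsPGroup p (P₀.subgroupOf (P₀ ⊔ K)) := hP.comap_subtype
    have hcardPL : Nat.card (P₀.subgroupOf (P₀ ⊔ K)) = Nat.card P₀ :=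
      Nat.card_congr (Subgroup.subgroupOfEquivOfLe (le_sup_left : P₀ ≤ P₀ ⊔ K)).toEquiv
    have hsup : IsPGroup p (N ⊔ P₀.subgroupOf (P₀ ⊔ K) : Subgroup ↥(P₀ ⊔ K)) :=
      IsPGroup.to_sup_of_normal_left hNp hPL
    have hle : N ≤ P₀.subgroupOf (P₀ ⊔ K) := by
      obtain ⟨b, hb⟩ := hsup.exists_card_eq
      obtain ⟨a, ha⟩ := hP.exists_card_eq
      have h1 : Nat.card (N ⊔ P₀.subgroupOf (P₀ ⊔ K) : Subgroup ↥(P₀ ⊔ K)) ∣
          Nat.card (P₀ ⊔ K : Subgroup G) := Subgroup.card_subgroup_dvd_card _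
      rw [← hcardL, hb, ha] at h1
      have hcop : (p ^ b).Coprime (Nat.card K) := Nat.Coprime.pow_left b hKp.symm
      have h2 : p ^ b ∣ p ^ a := hcop.dvd_of_dvd_mul_left h1
      have h3 : Nat.card (N ⊔ P₀.subgroupOf (P₀ ⊔ K) : Subgroup ↥(P₀ ⊔ K)) ≤
          Nat.card (P₀.subgroupOf (P₀ ⊔ K)) := by
        rw [hb, hcardPL, ha]; exact Nat.le_of_dvd (pow_pos hpp.pos a) h2
      have h4 := Subgroup.eq_of_le_of_card_ge
        (le_sup_right : P₀.subgroupOf (P₀ ⊔ K) ≤ N ⊔ P₀.subgroupOf (P₀ ⊔ K)) h3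
      rw [h4]; exact le_sup_left
    have hmap : N.map (P₀ ⊔ K).subtype ≤ P₀ ⊓ Subgroup.centralizer (K : Set G) := by
      rintro _ ⟨n, hn, rfl⟩
      refine Subgroup.mem_inf.mpr ⟨Subgroup.mem_subgroupOf.mp (hle hn), ?_⟩
      rw [Subgroup.mem_centralizer_iff]
      intro k hk
      have hk' : (⟨k, (le_sup_right : K ≤ P₀ ⊔ K) hk⟩ : ↥(P₀ ⊔ K)) ∈ K.subgroupOf (P₀ ⊔ K) :=
        Subgroup.mem_subgroupOf.mpr hk
      have h5 := hcomm n hn _ hk'
      exact (congrArg Subtype.val h5).symm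
    have hNA : Nat.card N ∣ Nat.card (P₀ ⊓ Subgroup.centralizer (K : Set G) : Subgroup G) := by
      have h1 : Nat.card (N.map (P₀ ⊔ K).subtype) = Nat.card N :=
        Subgroup.card_map_of_injective (Subgroup.subtype_injective _)
      rw [← h1]
      exact Subgroup.card_dvd_of_le hmap
    have hRA : Nat.card (P₀ ⊓ Subgroup.centralizer (K : Set G) : Subgroup G) *
        (P₀ ⊓ Subgroup.centralizer (K : Set G)).relIndex P₀ = Nat.card P₀ := by
      have h1 := Subgroup.card_mul_index ((P₀ ⊓ Subgroup.centralizer (K : Set G)).subgroupOf P₀)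
      rw [Nat.card_congr (Subgroup.subgroupOfEquivOfLe
        (inf_le_left : P₀ ⊓ Subgroup.centralizer (K : Set G) ≤ P₀)).toEquiv] at h1
      exact h1
    have hNI : Nat.card N * N.index = Nat.card (P₀ ⊔ K : Subgroup G) := Subgroup.card_mul_index N
    have hdvd : (P₀ ⊓ Subgroup.centralizer (K : Set G)).relIndex P₀ ∣ N.index := by
      obtain ⟨t, ht⟩ := hNA
      have hn0 : 0 < Nat.card N := Nat.card_pos
      refine ⟨Nat.card K * t, ?_⟩
      apply Nat.eq_of_mul_eq_mul_left hn0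
      rw [hNI, ← hcardL, ← hRA, ht]
      ring
    have hI0 : N.index ≠ 0 := Subgroup.index_ne_zero_of_finite
    have hR0 : (P₀ ⊓ Subgroup.centralizer (K : Set G)).relIndex P₀ ≠ 0 := by
      intro h0; rw [h0] at hdvd; exact hI0 (zero_dvd_iff.mp hdvd)
    exact (Nat.factorization_le_iff_dvd hR0 hI0).mpr hdvd p

end Cfsg.Agent.Lib.Helper87.DixGRPB
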