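import Mathlib
import Cfsg.Agent.Lib.Helper41.EMStmt
import Cfsg.Agent.Lib.Helper89.TM2INVDEC
import Cfsg.Agent.Lib.Helper52.TMORTHSUM
import Cfsg.Agent.Lib.Helper15.OMiTOPNDM

/-!
# S5990 / INVOLE (call by helper41), minus form

An isometry of the minus form with `x * x = 1` (`q` odd) fixes an elliptic `m`-space for every even
`m`, `2 ≤ m ≤ 2 d - 2`.  `V = Fx ⊥ Fm`, `A` the eigenspace of dimension `a ≥ d ≥ 4`, `B` the other
one.  `m < a`: SUBTYPE in `A`.  Otherwise `W = W_A ⊥ W_B` with exactly one summand of plus type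
(CANCEL).  Hypotheses of `main`: `SubTypeE`, `CancelM` (the non-scalar hypothesis is not used).
-/

set_option autoImplicit false

universe u

open scoped Matrix

namespace Cfsg.Agent.Lib.Helper87.EMINVOLE

open Cfsg.Agent.Lib.Helper41.EMStmt
open Cfsg.Agent.Lib.Helper45.OMiStmt (M Aniso FxM NDegM StabM mem_FxM)
open Cfsg.Agent.Lib.Helper41.TMTwoStmt (PlusM FmM)

theorem mem_FmM' {F : Type u} [Field F] {d : ℕ} (x : Matrix (M d) (M d) F) (v : M d → F) :
    v ∈ FmM x ↔ x *ᵥ v = -v := by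
  unfold FmM
  rw [LinearMap.mem_ker, LinearMap.add_apply, Matrix.toLin'_apply, LinearMap.id_apply,
    add_eq_zero_iff_eq_neg]

/-- the orthogonal sum of two nondegenerate spaces, exactly one of plus type, is elliptic -/
theorem ell_sup (hCan : CancelM.{u}) {F : Type u} [Field F] [Fintype F] (a₀ b₀ : F)
    (hab : Aniso a₀ b₀) (d : ℕ) (X Y : Submodule F (M d → F)) (hX : NDegM d F a₀ b₀ X)
    (hY : NDegM d F a₀ b₀ Y)
    (horth : ∀ u ∈ X, ∀ v ∈ Y,
      QuadraticMap.polar (Cfsg.quadFormMinus (d - 1) F a₀ b₀) u v = 0)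
    (hty : (PlusM d F a₀ b₀ X ∧ ¬ PlusM d F a₀ b₀ Y) ∨
      (¬ PlusM d F a₀ b₀ X ∧ PlusM d F a₀ b₀ Y)) :
    MemEM d F a₀ b₀ (Module.finrank F ↥X + Module.finrank F ↥Y) (X ⊔ Y) := by
  obtain ⟨hnd, -, hfin⟩ := Cfsg.Agent.Lib.Helper52.TMORTHSUM.main F a₀ b₀ hab d X Y hX hY horth
  refine ⟨hfin, hnd, ?_⟩
  intro hplus
  rcases hty with ⟨hpX, hnY⟩ | ⟨hnX, hpY⟩
  · exact hnY (hCan F a₀ b₀ hab d X Y hX hY horth hplus hpX)
  · have horth' : ∀ u ∈ Y, ∀ v ∈ X,
        QuadraticMap.polar (Cfsg.quadFormMinus (d - 1) F a₀ b₀) u v = 0 := by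
      intro u hu v hv
      rw [QuadraticMap.polar_comm]
      exact horth v hv u hu
    have hplus' : PlusM d F a₀ b₀ (Y ⊔ X) := by
      rw [sup_comm]; exact hplus
    exact hnX (hCan F a₀ b₀ hab d Y X hY hX horth' hplus' hpY)

theorem core (hSub : SubTypeE.{u}) (hCan : CancelM.{u}) {F : Type u} [Field F] [Fintype F]
    (a₀ b₀ : F) (hab : Aniso a₀ b₀) (d m : ℕ) (hd : 4 ≤ d) (hm2 : 2 ≤ m) (hmev : Even m)
    (hmd : m + 2 ≤ 2 * d) (A B : Submodule F (M d → F)) (hA : NDegM d F a₀ b₀ A)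
    (hB : NDegM d F a₀ b₀ B)
    (horth : ∀ u ∈ A, ∀ v ∈ B,
      QuadraticMap.polar (Cfsg.quadFormMinus (d - 1) F a₀ b₀) u v = 0)
    (hdim : Module.finrank F ↥A + Module.finrank F ↥B = 2 * d)
    (hAd : d ≤ Module.finrank F ↥A) :
    ∃ WA : Submodule F (M d → F), WA ≤ A ∧ ∃ WB : Submodule F (M d → F), WB ≤ B ∧
      MemEM d F a₀ b₀ m (WA ⊔ WB) := by
  have horth' : ∀ (WA WB : Submodule F (M d → F)), WA ≤ A → WB ≤ B →
      ∀ u ∈ WA, ∀ v ∈ WB,
        QuadraticMap.polar (Cfsg.quadFormMinus (d - 1) F a₀ b₀) u v = 0 :=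
    fun WA WB hWA hWB u hu v hv => horth u (hWA hu) v (hWB hv)
  by_cases hlt : m < Module.finrank F ↥A
  · obtain ⟨W, hWA, hMem⟩ := (hSub F a₀ b₀ hab d m A hA hmev hlt).2 hm2
    exact ⟨W, hWA, ⊥, bot_le, by rw [sup_bot_eq]; exact hMem⟩
  · rcases Nat.even_or_odd (Module.finrank F ↥A) with hae | hao
    · have heA : Even (Module.finrank F ↥A - 2) := by
        obtain ⟨k, hk⟩ := hae
        exact ⟨k - 1, by omega⟩
      have hltA : Module.finrank F ↥A - 2 < Module.finrank F ↥A := by omega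
      have h2A : 2 ≤ Module.finrank F ↥A - 2 := by omega
      have heB : Even (m - Module.finrank F ↥A + 2) := by
        obtain ⟨k, hk⟩ := hae
        obtain ⟨l, hl⟩ := hmev
        exact ⟨l - k + 1, by omega⟩
      by_cases hltB : m - Module.finrank F ↥A + 2 < Module.finrank F ↥B
      · obtain ⟨WA, hWA, hfA, hndA, hnpA⟩ := (hSub F a₀ b₀ hab d _ A hA heA hltA).2 h2A
        obtain ⟨WB, hWB, hfB, hndB, hpB⟩ := (hSub F a₀ b₀ hab d _ B hB heB hltB).1
        have h := ell_sup hCan a₀ b₀ hab d WA WB hndA hndB (horth' WA WB hWA hWB)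
          (Or.inr ⟨hnpA, hpB⟩)
        refine ⟨WA, hWA, WB, hWB, ?_⟩
        have hm : Module.finrank F ↥WA + Module.finrank F ↥WB = m := by
          rw [hfA, hfB]; omega
        rw [hm] at h
        exact h
      · have hBeq : m - Module.finrank F ↥A + 2 = Module.finrank F ↥B := by omega
        by_cases hpB : PlusM d F a₀ b₀ B
        · obtain ⟨WA, hWA, hfA, hndA, hnpA⟩ := (hSub F a₀ b₀ hab d _ A hA heA hltA).2 h2A
          have h := ell_sup hCan a₀ b₀ hab d WA B hndA hB (horth' WA B hWA le_rfl)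
            (Or.inr ⟨hnpA, hpB⟩)
          refine ⟨WA, hWA, B, le_rfl, ?_⟩
          have hm : Module.finrank F ↥WA + Module.finrank F ↥B = m := by
            rw [hfA]; omega
          rw [hm] at h
          exact h
        · obtain ⟨WA, hWA, hfA, hndA, hpA⟩ := (hSub F a₀ b₀ hab d _ A hA heA hltA).1
          have h := ell_sup hCan a₀ b₀ hab d WA B hndA hB (horth' WA B hWA le_rfl)
            (Or.inl ⟨hpA, hpB⟩)
          refine ⟨WA, hWA, B, le_rfl, ?_⟩
          have hm : Module.finrank F ↥WA + Module.finrank F ↥B = m := by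
            rw [hfA]; omega
          rw [hm] at h
          exact h
    · have heA : Even (Module.finrank F ↥A - 1) := by
        obtain ⟨k, hk⟩ := hao
        exact ⟨k, by omega⟩
      have hltA : Module.finrank F ↥A - 1 < Module.finrank F ↥A := by omega
      have h2A : 2 ≤ Module.finrank F ↥A - 1 := by omega
      have heB : Even (m - Module.finrank F ↥A + 1) := by
        obtain ⟨k, hk⟩ := hao
        obtain ⟨l, hl⟩ := hmev
        exact ⟨l - k, by omega⟩
      have hltB : m - Module.finrank F ↥A + 1 < Module.finrank F ↥B := by omega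
      obtain ⟨WA, hWA, hfA, hndA, hnpA⟩ := (hSub F a₀ b₀ hab d _ A hA heA hltA).2 h2A
      obtain ⟨WB, hWB, hfB, hndB, hpB⟩ := (hSub F a₀ b₀ hab d _ B hB heB hltB).1
      have h := ell_sup hCan a₀ b₀ hab d WA WB hndA hndB (horth' WA WB hWA hWB)
        (Or.inr ⟨hnpA, hpB⟩)
      refine ⟨WA, hWA, WB, hWB, ?_⟩
      have hm : Module.finrank F ↥WA + Module.finrank F ↥WB = m := by
        rw [hfA, hfB]; omega
      rw [hm] at h
      exact h

theorem main (hSub : SubTypeE.{u}) (hCan : CancelM.{u}) : InvolE.{u} := by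
  intro F _ _ a₀ b₀ hab hodd d m hd hm2 hmev hmd x hx hx2M _
  have hx2 : x ^ 2 = 1 := by
    apply Units.ext
    rw [pow_two]
    exact hx2M
  obtain ⟨hnd₁, hnd₂, horth, -, hdim, -⟩ := Cfsg.Agent.Lib.Helper89.TM2INVDEC.main
    Cfsg.Agent.Lib.Helper15.OMiTOPNDM.main F hodd d (by omega) a₀ b₀ hab x hx hx2
  have hsx : ∀ W : Submodule F (M d → F), W ≤ FxM (x : Matrix (M d) (M d) F) →
      StabM (x : Matrix (M d) (M d) F) W := by
    intro W hW
    rintro _ ⟨w, hw, rfl⟩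
    rw [Matrix.toLin'_apply, (mem_FxM _ w).mp (hW hw)]
    exact hw
  have hsm : ∀ W : Submodule F (M d → F), W ≤ FmM (x : Matrix (M d) (M d) F) →
      StabM (x : Matrix (M d) (M d) F) W := by
    intro W hW
    rintro _ ⟨w, hw, rfl⟩
    rw [Matrix.toLin'_apply, (mem_FmM' _ w).mp (hW hw)]
    exact Submodule.neg_mem _ hw
  have hsup : ∀ W₁ W₂ : Submodule F (M d → F), StabM (x : Matrix (M d) (M d) F) W₁ →
      StabM (x : Matrix (M d) (M d) F) W₂ → StabM (x : Matrix (M d) (M d) F) (W₁ ⊔ W₂) := by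
    intro W₁ W₂ h₁ h₂
    unfold StabM at h₁ h₂ ⊢
    rw [Submodule.map_sup]
    exact sup_le_sup h₁ h₂
  rcases le_total d (Module.finrank F ↥(FxM (x : Matrix (M d) (M d) F))) with h | h
  · obtain ⟨WA, hWA, WB, hWB, hMem⟩ := core hSub hCan a₀ b₀ hab d m hd hm2 hmev hmd _ _
      hnd₁ hnd₂ horth hdim h
    exact ⟨WA ⊔ WB, hMem, hsup _ _ (hsx WA hWA) (hsm WB hWB)⟩
  · have h' : d ≤ Module.finrank F ↥(FmM (x : Matrix (M d) (M d) F)) := by omega
    have horth' : ∀ u ∈ FmM (x : Matrix (M d) (M d) F),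
        ∀ v ∈ FxM (x : Matrix (M d) (M d) F),
        QuadraticMap.polar (Cfsg.quadFormMinus (d - 1) F a₀ b₀) u v = 0 := by
      intro u hu v hv
      rw [QuadraticMap.polar_comm]
      exact horth v hv u hu
    obtain ⟨WA, hWA, WB, hWB, hMem⟩ := core hSub hCan a₀ b₀ hab d m hd hm2 hmev hmd _ _
      hnd₂ hnd₁ horth' (by omega) h'
    exact ⟨WA ⊔ WB, hMem, hsup _ _ (hsm WA hWA) (hsx WB hWB)⟩

end Cfsg.Agent.Lib.Helper87.EMINVOLE
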