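import Mathlib
import Cfsg.Agent.Lib.Helper96.HallConjStmt

/-!
# S2535, piece S72: in degree `7`, the stabilizer of a `3`-set is a `{2, 3}`-group
-/

set_option autoImplicit false

namespace Cfsg.Agent.Lib.Helper87.HCS72

open Equiv Cfsg.Agent.Lib.Helper96.HallSymStmt Cfsg.Agent.Lib.Helper96.HallConjStmt
open scoped Pointwise

theorem main : Cfsg.Agent.Lib.Helper96.HallConjStmt.S72' := by
  intro hPINV Ω _ _ hcard π h2 h3 Δ hΔ p hp hdvd
  -- p ≤ 7
  have hle : p ≤ 7 := by
    have h1 : Nat.card (MulAction.stabilizer (Perm Ω) Δ) ∣ Nat.card (Perm Ω) :=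
      Subgroup.card_subgroup_dvd_card _
    have h2' : Nat.card (Perm Ω) = (Fintype.card Ω).factorial := by
      rw [Nat.card_eq_fintype_card, Fintype.card_perm]
    rw [h2', hcard] at h1
    exact (hp.dvd_factorial).1 (hdvd.trans h1)
  by_cases hp2 : p = 2
  · rw [hp2]; exact h2
  by_cases hp3 : p = 3
  · rw [hp3]; exact h3
  exfalso
  have hp5 : 5 ≤ p := by
    have := hp.two_le
    by_contra hlt
    have h4 : p = 4 := by omega
    rw [h4] at hp
    exact absurd hp (by decide)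
  have : Fact p.Prime := ⟨hp⟩
  obtain ⟨g, hg⟩ := exists_prime_orderOf_dvd_card' p hdvd
  have hg1 : (g : Perm Ω) ≠ 1 := by
    intro h1
    have : g = 1 := Subtype.ext h1
    rw [this, orderOf_one] at hg
    omega
  have hgp : (g : Perm Ω) ^ p = 1 := by
    have : g ^ p = 1 := by rw [← hg]; exact pow_orderOf_eq_one g
    have h' := congrArg (Subtype.val) this
    simpa using h'
  have hstab : (g : Perm Ω) • Δ = Δ := MulAction.mem_stabilizer_iff.1 g.2
  have hinv : ∀ x ∈ Δ, (g : Perm Ω) x ∈ Δ := by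
    intro x hx
    have : (g : Perm Ω) • x ∈ (g : Perm Ω) • Δ := Set.smul_mem_smul_set hx
    rw [hstab] at this
    exact this
  have hinvc : ∀ x ∈ Δᶜ, (g : Perm Ω) x ∈ Δᶜ := by
    intro x hx hgx
    apply hx
    have : (g : Perm Ω) x ∈ (g : Perm Ω) • Δ := by rw [hstab]; exact hgx
    obtain ⟨y, hy, hyx⟩ := this
    have : y = x := (g : Perm Ω).injective hyx
    rw [← this]; exact hy
  have hΔc : Δᶜ.ncard = 4 := by
    have := Set.ncard_add_ncard_compl Δ
    rw [hΔ, Nat.card_eq_fintype_card, hcard] at this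
    omega
  have hfix : ∀ x ∈ Δ, (g : Perm Ω) x = x := hPINV Ω g p hp hgp Δ hinv (by omega)
  have hfixc : ∀ x ∈ Δᶜ, (g : Perm Ω) x = x := hPINV Ω g p hp hgp Δᶜ hinvc (by omega)
  apply hg1
  ext x
  by_cases hx : x ∈ Δ
  · simpa using hfix x hx
  · simpa using hfixc x hx

end Cfsg.Agent.Lib.Helper87.HCS72
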