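import Mathlib
import Cfsg.Agent.Lib.Helper96.HallConjStmt

/-!
# S2535, piece S82: in degree `8`, the stabilizer of a partition into two `4`-sets is a
`{2, 3}`-group
-/

set_option autoImplicit false

namespace Cfsg.Agent.Lib.Helper87.HCS82

open Equiv Cfsg.Agent.Lib.Helper96.HallSymStmt Cfsg.Agent.Lib.Helper96.HallConjStmt
open scoped Pointwise

theorem smul_compl {Ω : Type} (g : Perm Ω) (Δ : Set Ω) : g • Δᶜ = (g • Δ)ᶜ := by
  exact Set.smul_set_compl

theorem main : Cfsg.Agent.Lib.Helper96.HallConjStmt.S82' := by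
  intro hPINV Ω _ _ hcard π h2 h3 Δ hΔ p hp hdvd
  -- p ≤ 8
  have hle : p ≤ 8 := by
    have h1 : Nat.card (MulAction.stabilizer (Perm Ω) ({Δ, Δᶜ} : Set (Set Ω))) ∣
        Nat.card (Perm Ω) := Subgroup.card_subgroup_dvd_card _
    have h2' : Nat.card (Perm Ω) = (Fintype.card Ω).factorial := by
      rw [Nat.card_eq_fintype_card, Fintype.card_perm]
    rw [h2', hcard] at h1
    exact (hp.dvd_factorial).1 (hdvd.trans h1)
  by_cases hp2 : p = 2
  · rw [hp2]; exact h2
  by_cases hp3 : p = 3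
  · rw [hp3]; exact h3
  exfalso
  have hp5 : 5 ≤ p := by
    have := hp.two_le
    by_contra hlt
    have h4 : p = 4 := by omega
    rw [h4] at hp
    exact absurd hp (by decide)
  have hodd : Odd p := hp.odd_of_ne_two hp2
  have : Fact p.Prime := ⟨hp⟩
  obtain ⟨g0, hg0⟩ := exists_prime_orderOf_dvd_card' p hdvd
  have hg10 : (g0 : Perm Ω) ≠ 1 := by
    intro h1
    have : g0 = 1 := Subtype.ext h1
    rw [this, orderOf_one] at hg0
    omega
  have hgp0 : (g0 : Perm Ω) ^ p = 1 := by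
    have : g0 ^ p = 1 := by rw [← hg0]; exact pow_orderOf_eq_one g0
    have h' := congrArg (Subtype.val) this
    simpa using h'
  have hstab00 : (g0 : Perm Ω) • ({Δ, Δᶜ} : Set (Set Ω)) = {Δ, Δᶜ} :=
    MulAction.mem_stabilizer_iff.1 g0.2
  obtain ⟨g, hg1, hgp, hstab0⟩ : ∃ g : Perm Ω, g ≠ 1 ∧ g ^ p = 1 ∧
      g • ({Δ, Δᶜ} : Set (Set Ω)) = {Δ, Δᶜ} := ⟨g0, hg10, hgp0, hstab00⟩
  clear hstab00 hgp0 hg10 hg0 g0
  have hmem : g • Δ ∈ ({Δ, Δᶜ} : Set (Set Ω)) := by
    rw [← hstab0]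
    exact Set.smul_mem_smul_set (Set.mem_insert _ _)
  -- g² fixes Δ
  have hsq : (g ^ 2) • Δ = Δ := by
    rw [pow_two, mul_smul]
    rcases hmem with h | h
    · rw [h, h]
    · have h' : g • Δ = Δᶜ := h
      rw [h', smul_compl, h', compl_compl]
  have hstab : g • Δ = Δ := by
    obtain ⟨k, hk⟩ := hodd
    have hgk : g = (g ^ 2) ^ (k + 1) := by
      rw [← pow_mul]
      have : 2 * (k + 1) = p + 1 := by omega
      rw [this, pow_succ, hgp, one_mul]
    have hpow : ∀ n : ℕ, ((g ^ 2) ^ n) • Δ = Δ := by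
      intro n
      induction n with
      | zero => simp
      | succ n ih => rw [pow_succ, mul_smul, hsq, ih]
    have := hpow (k + 1)
    rw [← hgk] at this
    exact this
  have hinv : ∀ x ∈ Δ, g x ∈ Δ := by
    intro x hx
    have : g • x ∈ g • Δ := Set.smul_mem_smul_set hx
    rw [hstab] at this
    exact this
  have hinvc : ∀ x ∈ Δᶜ, g x ∈ Δᶜ := by
    intro x hx hgx
    apply hx
    have : g x ∈ g • Δ := by rw [hstab]; exact hgx
    obtain ⟨y, hy, hyx⟩ := this
    have : y = x := g.injective hyx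
    rw [← this]; exact hy
  have hΔc : Δᶜ.ncard = 4 := by
    have := Set.ncard_add_ncard_compl Δ
    rw [hΔ, Nat.card_eq_fintype_card, hcard] at this
    omega
  have hfix : ∀ x ∈ Δ, g x = x := hPINV Ω g p hp hgp Δ hinv (by omega)
  have hfixc : ∀ x ∈ Δᶜ, g x = x := hPINV Ω g p hp hgp Δᶜ hinvc (by omega)
  apply hg1
  ext x
  by_cases hx : x ∈ Δ
  · simpa using hfix x hx
  · simpa using hfixc x hx

end Cfsg.Agent.Lib.Helper87.HCS82
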