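import Mathlib
import Cfsg.Agent.Lib.Helper96.HallConjStmt

/-!
# S2535, piece SP: in prime degree, a Hall subgroup for the primes `< n` is a point stabilizer
-/

set_option autoImplicit false

namespace Cfsg.Agent.Lib.Helper87.HCSP

open Equiv Cfsg.Agent.Lib.Helper96.HallSymStmt Cfsg.Agent.Lib.Helper96.HallConjStmt
open scoped Pointwise

theorem main : Cfsg.Agent.Lib.Helper96.HallConjStmt.SP' := by
  intro hHMAXT hSP1 hSP2 Ω _ _ hprime π hcase H hH
  obtain ⟨x, hx⟩ := hSP1 Ω hprime π hcase H hH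
  refine ⟨x, ?_⟩
  have hle : H ≤ MulAction.stabilizer (Perm Ω) x := by
    intro g hg
    exact MulAction.mem_stabilizer_iff.2 (hx g hg)
  have hpi : Cfsg.IsPiSubgroup π (MulAction.stabilizer (Perm Ω) x) := by
    apply hSP2 Ω π x
    intro r hr hlt
    exact (hcase r hr hlt.le).2 hlt
  exact (hHMAXT (Perm Ω) π H _ hH hle hpi).symm

end Cfsg.Agent.Lib.Helper87.HCSP
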