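import Mathlib
import Cfsg.Agent.Lib.Helper96.HallConjStmt
import Cfsg.Agent.Lib.Helper96.HallSymFwd

/-!
# S2535, piece SP1: in prime degree, a Hall subgroup for the primes `< n` fixes a point
-/

set_option autoImplicit false

namespace Cfsg.Agent.Lib.Helper87.HCSP1

open Equiv Cfsg.Agent.Lib.Helper96.HallSymStmt Cfsg.Agent.Lib.Helper96.HallConjStmt
open scoped Pointwise

theorem main : Cfsg.Agent.Lib.Helper96.HallConjStmt.SP1' := by
  intro hBINP Ω _ _ hprime π hcase H hH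
  -- H not transitive
  have hnt : ¬ Trans H := by
    intro htr
    have hdvd : Fintype.card Ω ∣ Nat.card H :=
      Cfsg.Agent.Lib.Helper96.HallSymFwd.tdvd Ω H hprime.pos htr
    have : Fintype.card Ω ∈ π := hH.1 _ hprime hdvd
    exact lt_irrefl _ ((hcase _ hprime le_rfl).1 this)
  unfold Cfsg.Agent.Lib.Helper96.HallSymStmt.Trans at hnt
  simp only [not_forall] at hnt
  obtain ⟨x, y, hxy⟩ := hnt
  obtain ⟨Δ, hΔ⟩ : ∃ Δ : Set Ω, Δ = Orb H x := ⟨_, rfl⟩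
  have hxΔ : x ∈ Δ := by rw [hΔ]; exact ⟨1, H.one_mem, rfl⟩
  have hyΔ : y ∉ Δ := by
    rw [hΔ]
    rintro ⟨h, hh, e⟩
    exact hxy ⟨h, hh, e⟩
  have hinv : InvS H Δ := by
    rw [hΔ]
    rintro h hh z ⟨k, hk, e⟩
    exact ⟨h * k, H.mul_mem hh hk, by rw [← e]; rfl⟩
  have hinvc : InvS H Δᶜ := by
    rw [hΔ]
    intro h hh z hz hhz
    apply hz
    obtain ⟨k, hk, e⟩ := hhz
    refine ⟨h⁻¹ * k, H.mul_mem (H.inv_mem hh) hk, ?_⟩
    rw [Perm.mul_apply, e]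
    simp
  have hssa := Cfsg.Agent.Lib.Helper96.HallSymFwd.ssa Ω π H hH Δ hinv
  have hm1 : 1 ≤ Δ.ncard := (Set.ncard_pos (Set.toFinite Δ)).2 ⟨x, hxΔ⟩
  have hsum := Set.ncard_add_ncard_compl Δ
  rw [Nat.card_eq_fintype_card] at hsum
  have hc1 : 1 ≤ Δᶜ.ncard := (Set.ncard_pos (Set.toFinite Δᶜ)).2 ⟨y, hyΔ⟩
  by_cases h1 : Δ.ncard = 1
  · obtain ⟨z, hz⟩ := Set.ncard_eq_one.1 h1
    have hxz : x = z := by rw [hz] at hxΔ; exact hxΔ
    refine ⟨x, fun g hg => ?_⟩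
    have : g x ∈ Δ := hinv g hg x hxΔ
    rw [hz] at this
    rw [hxz] at this ⊢
    exact this
  by_cases h2 : Δᶜ.ncard = 1
  · obtain ⟨z, hz⟩ := Set.ncard_eq_one.1 h2
    refine ⟨z, fun g hg => ?_⟩
    have hzc : z ∈ Δᶜ := by rw [hz]; rfl
    have : g z ∈ Δᶜ := hinvc g hg z hzc
    rw [hz] at this
    exact this
  exfalso
  obtain ⟨q, hq, hqn, hqd⟩ := hBINP (Fintype.card Ω) Δ.ncard hprime (by omega) (by omega)
  exact hssa q hq ((hcase q hq hqn.le).2 hqn) hqd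

end Cfsg.Agent.Lib.Helper87.HCSP1
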