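import Cfsg.Agent.Lib.Helper3.M24BlkStmt
import Cfsg.Agent.Lib.Helper7.M22Class
import Cfsg.Agent.Lib.Helper7.M24Main

/-!
# S5006, piece HCOMPL: an element of odd order of `M24` commuting with no involution has a label
-/

set_option autoImplicit false

namespace Cfsg.Agent.Lib.Helper87.M24HCOMPL

open Cfsg Cfsg.Agent.Lib.Helper3.M24Blk Cfsg.Agent.Lib.Helper3.M24BlkStmt

theorem fac5 : (244823040 : ℕ).factorization 5 = 1 := by
  have h : (244823040 : ℕ) = 5 * 48964608 := by norm_num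
  rw [h, Nat.factorization_mul (by norm_num) (by norm_num), Finsupp.add_apply,
    Nat.Prime.factorization_self (by norm_num : Nat.Prime 5),
    Nat.factorization_eq_zero_of_not_dvd (by norm_num : ¬ 5 ∣ 48964608)]

theorem fac7 : (244823040 : ℕ).factorization 7 = 1 := by
  have h : (244823040 : ℕ) = 7 * 34974720 := by norm_num
  rw [h, Nat.factorization_mul (by norm_num) (by norm_num), Finsupp.add_apply,
    Nat.Prime.factorization_self (by norm_num : Nat.Prime 7),
    Nat.factorization_eq_zero_of_not_dvd (by norm_num : ¬ 7 ∣ 34974720)]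

/-- the order of `g ^ (orderOf g / d)` -/
theorem orderOf_pow_div {G : Type*} [Group G] {g : G} {d : ℕ} (hd : d ∣ orderOf g)
    (h0 : orderOf g ≠ 0) : orderOf (g ^ (orderOf g / d)) = d := by
  obtain ⟨e, he⟩ := hd
  have hd0 : d ≠ 0 := by
    rintro rfl
    rw [zero_mul] at he
    exact h0 he
  have he0 : e ≠ 0 := by
    rintro rfl
    rw [mul_zero] at he
    exact h0 he
  have h1 : orderOf g / d = e := by
    rw [he]
    exact Nat.mul_div_cancel_left e (Nat.pos_of_ne_zero hd0)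
  rw [h1, orderOf_pow_of_dvd he0 ⟨d, by rw [he, mul_comm]⟩, he]
  exact Nat.mul_div_cancel d (Nat.pos_of_ne_zero he0)

theorem main : OrdStmt → ThreeStmt → I57Stmt → ClaStmt → ClbStmt → HComplStmt := by
  intro hOrd hThree hI57 hCla hClb g hodd hno
  classical
  have hcard := Cfsg.Agent.Lib.Helper7.M24Main.card_M24
  have hfin : Finite G24 := Nat.finite_of_card_ne_zero (by rw [hcard]; norm_num)
  obtain ⟨n, hn⟩ : ∃ n, n = orderOf g := ⟨_, rfl⟩
  have hn0 : orderOf g ≠ 0 := (orderOf_pos g).ne'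
  have hdvd : n ∣ 244823040 := by
    rw [hn, ← hcard]
    exact orderOf_dvd_natCard g
  have hoddn : Odd n := hn ▸ hodd
  have hdvd' : n ∣ 239085 := by
    have e : (244823040 : ℕ) = 2 ^ 10 * 239085 := by norm_num
    rw [e] at hdvd
    exact (Nat.Coprime.pow_right 10 (Nat.coprime_two_right.mpr hoddn)).dvd_of_dvd_mul_left
      hdvd
  have hcomm : ∀ a b : ℕ, Commute (g ^ a) (g ^ b) := fun a b => (Commute.refl g).pow_pow a b
  -- no element of order 9
  have h9 : ¬ 9 ∣ n := by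
    intro h
    rw [hn] at h
    have ho := orderOf_pow_div h hn0
    have h1 := (hThree (g ^ (orderOf g / 9)) ⟨2, by
      have := pow_orderOf_eq_one (g ^ (orderOf g / 9))
      rw [ho] at this
      exact this⟩).1
    have h2 := orderOf_dvd_of_pow_eq_one h1
    rw [ho] at h2
    omega
  have hA : ∀ q1 q2 : ℕ, (q1 = 5 ∨ q1 = 7 ∨ q1 = 11 ∨ q1 = 23) →
      (q2 = 5 ∨ q2 = 7 ∨ q2 = 11 ∨ q2 = 23) → q1 ≠ q2 → q1 ∣ n → q2 ∣ n → False := by
    intro q1 q2 h1 h2 hne hd1 hd2
    rw [hn] at hd1 hd2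
    exact hCla (g ^ (orderOf g / q1)) (g ^ (orderOf g / q2)) q1 q2 h1 h2 hne
      (orderOf_pow_div hd1 hn0) (orderOf_pow_div hd2 hn0) (hcomm _ _)
  have hB : ∀ q : ℕ, (q = 11 ∨ q = 23) → 3 ∣ n → q ∣ n → False := by
    intro q h1 hd1 hd2
    rw [hn] at hd1 hd2
    exact hClb (g ^ (orderOf g / 3)) (g ^ (orderOf g / q)) q h1
      (orderOf_pow_div hd1 hn0) (orderOf_pow_div hd2 hn0) (hcomm _ _)
  -- the gcd decomposition
  have hprod : n = Nat.gcd n 27 * (Nat.gcd n 5 * (Nat.gcd n 7 * (Nat.gcd n 11 * Nat.gcd n 23))) := by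
    have e : (239085 : ℕ) = 27 * (5 * (7 * (11 * 23))) := by norm_num
    have h1 := Nat.gcd_eq_left hdvd'
    rw [e, Nat.Coprime.gcd_mul n (by norm_num : Nat.Coprime 27 (5 * (7 * (11 * 23)))),
      Nat.Coprime.gcd_mul n (by norm_num : Nat.Coprime 5 (7 * (11 * 23))),
      Nat.Coprime.gcd_mul n (by norm_num : Nat.Coprime 7 (11 * 23)),
      Nat.Coprime.gcd_mul n (by norm_num : Nat.Coprime 11 23)] at h1
    exact h1.symm
  have h27 : Nat.gcd n 27 = 1 ∨ Nat.gcd n 27 = 3 := by
    have h1 : Nat.gcd n 27 ∣ 3 ^ 3 := Nat.gcd_dvd_right n 27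
    obtain ⟨i, hi, hi'⟩ := (Nat.dvd_prime_pow Nat.prime_three).mp h1
    have h2 : Nat.gcd n 27 ∣ n := Nat.gcd_dvd_left n 27
    interval_cases i
    · left; simpa using hi'
    · right; simpa using hi'
    · exfalso
      rw [hi'] at h2
      exact h9 (by norm_num at h2; exact h2)
    · exfalso
      rw [hi'] at h2
      exact h9 (Dvd.dvd.trans (by norm_num) h2)
  have h5 : Nat.gcd n 5 = 1 ∨ Nat.gcd n 5 = 5 :=
    (Nat.dvd_prime (by norm_num)).mp (Nat.gcd_dvd_right n 5)
  have h7 : Nat.gcd n 7 = 1 ∨ Nat.gcd n 7 = 7 :=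
    (Nat.dvd_prime (by norm_num)).mp (Nat.gcd_dvd_right n 7)
  have h11 : Nat.gcd n 11 = 1 ∨ Nat.gcd n 11 = 11 :=
    (Nat.dvd_prime (by norm_num)).mp (Nat.gcd_dvd_right n 11)
  have h23 : Nat.gcd n 23 = 1 ∨ Nat.gcd n 23 = 23 :=
    (Nat.dvd_prime (by norm_num)).mp (Nat.gcd_dvd_right n 23)
  have d3 : Nat.gcd n 27 = 3 → 3 ∣ n := fun h => h ▸ Nat.gcd_dvd_left n 27
  have d5 : Nat.gcd n 5 = 5 → 5 ∣ n := fun h => by
    have := Nat.gcd_dvd_left n 5
    rwa [h] at this
  have d7 : Nat.gcd n 7 = 7 → 7 ∣ n := fun h => by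
    have := Nat.gcd_dvd_left n 7
    rwa [h] at this
  have d11 : Nat.gcd n 11 = 11 → 11 ∣ n := fun h => by
    have := Nat.gcd_dvd_left n 11
    rwa [h] at this
  have d23 : Nat.gcd n 23 = 23 → 23 ∣ n := fun h => by
    have := Nat.gcd_dvd_left n 23
    rwa [h] at this
  have x57 : Nat.gcd n 5 = 1 ∨ Nat.gcd n 7 = 1 := by
    rcases h5 with h | h
    · exact Or.inl h
    · rcases h7 with h' | h'
      · exact Or.inr h'
      · exact (hA 5 7 (by norm_num) (by norm_num) (by norm_num) (d5 h) (d7 h')).elim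
  have x511 : Nat.gcd n 5 = 1 ∨ Nat.gcd n 11 = 1 := by
    rcases h5 with h | h
    · exact Or.inl h
    · rcases h11 with h' | h'
      · exact Or.inr h'
      · exact (hA 5 11 (by norm_num) (by norm_num) (by norm_num) (d5 h) (d11 h')).elim
  have x523 : Nat.gcd n 5 = 1 ∨ Nat.gcd n 23 = 1 := by
    rcases h5 with h | h
    · exact Or.inl h
    · rcases h23 with h' | h'
      · exact Or.inr h'
      · exact (hA 5 23 (by norm_num) (by norm_num) (by norm_num) (d5 h) (d23 h')).elim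
  have x711 : Nat.gcd n 7 = 1 ∨ Nat.gcd n 11 = 1 := by
    rcases h7 with h | h
    · exact Or.inl h
    · rcases h11 with h' | h'
      · exact Or.inr h'
      · exact (hA 7 11 (by norm_num) (by norm_num) (by norm_num) (d7 h) (d11 h')).elim
  have x723 : Nat.gcd n 7 = 1 ∨ Nat.gcd n 23 = 1 := by
    rcases h7 with h | h
    · exact Or.inl h
    · rcases h23 with h' | h'
      · exact Or.inr h'
      · exact (hA 7 23 (by norm_num) (by norm_num) (by norm_num) (d7 h) (d23 h')).elim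
  have x1123 : Nat.gcd n 11 = 1 ∨ Nat.gcd n 23 = 1 := by
    rcases h11 with h | h
    · exact Or.inl h
    · rcases h23 with h' | h'
      · exact Or.inr h'
      · exact (hA 11 23 (by norm_num) (by norm_num) (by norm_num) (d11 h) (d23 h')).elim
  have x311 : Nat.gcd n 27 = 1 ∨ Nat.gcd n 11 = 1 := by
    rcases h27 with h | h
    · exact Or.inl h
    · rcases h11 with h' | h'
      · exact Or.inr h'
      · exact (hB 11 (by norm_num) (d3 h) (d11 h')).elim
  have x323 : Nat.gcd n 27 = 1 ∨ Nat.gcd n 23 = 1 := by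
    rcases h27 with h | h
    · exact Or.inl h
    · rcases h23 with h' | h'
      · exact Or.inr h'
      · exact (hB 23 (by norm_num) (d3 h) (d23 h')).elim
  have hcases : n = 1 ∨ n = 3 ∨ n = 5 ∨ n = 7 ∨ n = 11 ∨ n = 15 ∨ n = 21 ∨ n = 23 := by
    rcases h27 with a | a <;> rcases h5 with b | b <;> rcases h7 with c | c <;>
      rcases h11 with d | d <;> rcases h23 with e | e <;>
      rw [a, b, c, d, e] at hprod <;> omega
  -- conjugation of a commuting involution
  have hconj : ∀ (r : G24) (p : ℕ) [Fact p.Prime], orderOf r = p →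
      (244823040 : ℕ).factorization p = 1 → (∃ u : G24, orderOf u = 2 ∧ Commute u r) →
      orderOf g = p → False := by
    intro r p _ hr hfac hu hg
    obtain ⟨u, hu2, hur⟩ := hu
    obtain ⟨c, k, -, -, hk⟩ := Cfsg.Agent.Lib.Helper7.M22Class.conj_into_zpowers hr
      (by rw [hcard]; exact hfac) hg
    refine hno (c⁻¹ * u * c) ?_ ?_
    · have := MulEquiv.orderOf_eq (MulAut.conj c⁻¹) u
      rw [MulAut.conj_apply, inv_inv] at this
      rw [this, hu2]
    · have h1 : Commute u (c * g * c⁻¹) := hk ▸ hur.pow_right k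
      have h2 : u * (c * g * c⁻¹) = c * g * c⁻¹ * u := h1.eq
      show c⁻¹ * u * c * g = g * (c⁻¹ * u * c)
      calc c⁻¹ * u * c * g = c⁻¹ * (u * (c * g * c⁻¹)) * c := by group
        _ = c⁻¹ * (c * g * c⁻¹ * u) * c := by rw [h2]
        _ = g * (c⁻¹ * u * c) := by group
  have hlab : (orderOf g = 11 ∨ orderOf g = 15 ∨ orderOf g = 21 ∨ orderOf g = 23) →
      lab g ≠ none := by
    intro h
    unfold lab labP
    rw [Subgroup.orderOf_coe g]
    split_ifs <;> first | exact Option.some_ne_none _ | omega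
  have hthree : g ^ 3 = 1 → False := by
    intro h
    obtain ⟨-, u, hu2, hug⟩ := hThree g ⟨1, by simpa using h⟩
    exact hno u hu2 hug
  rw [hn] at hcases
  rcases hcases with h | h | h | h | h | h | h | h
  · exact (hthree (by rw [orderOf_eq_one_iff.mp h, one_pow])).elim
  · exact (hthree (by rw [← h]; exact pow_orderOf_eq_one g)).elim
  · have : Fact (Nat.Prime 5) := ⟨by norm_num⟩
    refine (hconj r5 5 ?_ fac5 hI57.1 h).elim
    have : orderOf r5 = orderOf r15 / 3 := orderOf_pow_of_dvd (by norm_num) (by rw [hOrd.2.1]; norm_num)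
    rw [this, hOrd.2.1]
  · have : Fact (Nat.Prime 7) := ⟨by norm_num⟩
    refine (hconj r7 7 ?_ fac7 hI57.2 h).elim
    have : orderOf r7 = orderOf r21 / 3 := orderOf_pow_of_dvd (by norm_num) (by rw [hOrd.2.2.1]; norm_num)
    rw [this, hOrd.2.2.1]
  · exact hlab (Or.inl h)
  · exact hlab (Or.inr (Or.inl h))
  · exact hlab (Or.inr (Or.inr (Or.inl h)))
  · exact hlab (Or.inr (Or.inr (Or.inr h)))

end Cfsg.Agent.Lib.Helper87.M24HCOMPL
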