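import Mathlib
import Cfsg.Agent.Lib.Helper98.PSpStmt

/-!
# S3421, piece CB (and shared lemmas on the cyclic subgroup `⟨x⟩` and its involution)
-/

set_option autoImplicit false

namespace Cfsg.Agent.Lib.Helper87.PSpCB

open Cfsg.Agent.Lib.Helper98

universe u

section basic

variable {G : Type u} [Group G]

theorem t_sq {x : G} {n : ℕ} (hn : Even n) (hx : orderOf x = n) : (x ^ (n / 2)) ^ 2 = 1 := by
  rw [← pow_mul, Nat.div_mul_cancel hn.two_dvd, ← hx, pow_orderOf_eq_one]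

theorem t_ne {x : G} {n : ℕ} (h0 : 0 < n) (hn : Even n) (hx : orderOf x = n) :
    x ^ (n / 2) ≠ 1 := by
  apply pow_ne_one_of_lt_orderOf
  · obtain ⟨k, hk⟩ := hn
    omega
  · rw [hx]
    exact Nat.div_lt_self h0 (by norm_num)

theorem t_mem (x : G) (k : ℕ) : x ^ k ∈ Subgroup.zpowers x :=
  Subgroup.pow_mem _ (Subgroup.mem_zpowers x) k

theorem zp_comm {x a b : G} (ha : a ∈ Subgroup.zpowers x) (hb : b ∈ Subgroup.zpowers x) :
    a * b = b * a := by
  obtain ⟨i, rfl⟩ := Subgroup.mem_zpowers_iff.mp ha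
  obtain ⟨j, rfl⟩ := Subgroup.mem_zpowers_iff.mp hb
  exact ((Commute.refl x).zpow_zpow i j).eq

theorem zp_pow {x b : G} {n : ℕ} (hx : orderOf x = n) (hb : b ∈ Subgroup.zpowers x) :
    b ^ n = 1 := by
  obtain ⟨i, rfl⟩ := Subgroup.mem_zpowers_iff.mp hb
  rw [← zpow_natCast, ← zpow_mul, mul_comm, zpow_mul, zpow_natCast, ← hx, pow_orderOf_eq_one,
    one_zpow]

theorem zp_le_cent {x b : G} (hb : b ∈ Subgroup.zpowers x) :
    Subgroup.zpowers x ≤ Subgroup.centralizer {b} := by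
  intro g hg
  rw [Subgroup.mem_centralizer_singleton_iff]
  exact zp_comm hg hb

theorem x_mem_cent (x : G) (k : ℕ) : x ∈ Subgroup.centralizer ({x ^ k} : Set G) :=
  zp_le_cent (t_mem x k) (Subgroup.mem_zpowers x)

end basic

theorem main (hCent1 : PSpStmt.Cent1.{u}) (hCard1 : PSpStmt.Card1.{u}) (hIdx2 : PSpStmt.Idx2.{u})
    (hCT : PSpStmt.CT.{u}) : PSpStmt.CB.{u} := by
  intro G _ p q m₁ m₂ h x b hx hb hb1
  have hfin := h.fin
  have hm0 : 0 < m₁ := by
    have := h.m1_ge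
    omega
  have hle := zp_le_cent hb
  have hexp : ∀ c ∈ Subgroup.centralizer ({b} : Set G), c ^ m₁ = 1 := by
    intro c hc
    exact hCent1 G p q m₁ m₂ h b c hb1 (zp_pow hx hb)
      (Subgroup.mem_centralizer_singleton_iff.mp hc)
  have hd1 : Nat.card (Subgroup.centralizer ({b} : Set G)) ∣ 2 * m₁ :=
    hCard1 G p q m₁ m₂ h _ hexp
  have hd2 : m₁ ∣ Nat.card (Subgroup.centralizer ({b} : Set G)) := by
    have := Subgroup.card_dvd_of_le hle
    rwa [Nat.card_zpowers, hx] at this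
  obtain ⟨d, hd⟩ := hd2
  have hd' : d ∣ 2 := by
    rw [hd, mul_comm 2 m₁] at hd1
    exact (Nat.mul_dvd_mul_iff_left hm0).mp hd1
  have hd12 : d = 1 ∨ d = 2 := (Nat.dvd_prime Nat.prime_two).mp hd'
  rcases hd12 with rfl | rfl
  · left
    symm
    apply Subgroup.eq_of_le_of_card_ge hle
    rw [hd, Nat.card_zpowers, hx, mul_one]
  · right
    have hK : Nat.card (Subgroup.centralizer ({b} : Set G)) = 2 * m₁ := by rw [hd, mul_comm]
    have hxK : x ∈ Subgroup.centralizer ({b} : Set G) := hle (Subgroup.mem_zpowers x)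
    obtain ⟨-, h2⟩ := hIdx2 G x _ m₁ hm0 h.m1even hx hxK hK
    apply Subgroup.eq_of_le_of_card_ge
    · intro g hg
      rw [Subgroup.mem_centralizer_singleton_iff]
      exact h2 g hg
    · rw [hCT G p q m₁ m₂ h x hx, hK]

end Cfsg.Agent.Lib.Helper87.PSpCB
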