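import Mathlib
import Cfsg.Agent.Lib.Helper98.PSpStmt
import Cfsg.Agent.Lib.Helper87.PSpCB

/-!
# S3421, piece CNB: `N(⟨x⟩) = C(t)` for the involution `t` of `⟨x⟩`
-/

set_option autoImplicit false

namespace Cfsg.Agent.Lib.Helper87.PSpCNB

open Cfsg.Agent.Lib.Helper98 Cfsg.Agent.Lib.Helper87.PSpCB

universe u

theorem main (hCyc : PSpStmt.CycInv.{u}) (hIdx2 : PSpStmt.Idx2.{u}) (hCT : PSpStmt.CT.{u}) :
    PSpStmt.CNB.{u} := by
  intro G _ p q m₁ m₂ h x hx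
  have hfin := h.fin
  have hm0 : 0 < m₁ := by
    have := h.m1_ge
    omega
  apply le_antisymm
  · intro g hg
    rw [Subgroup.mem_centralizer_singleton_iff]
    have hg' : g * x ^ (m₁ / 2) * g⁻¹ ∈ Subgroup.zpowers x :=
      (Subgroup.mem_set_normalizer_iff.mp hg (x ^ (m₁ / 2))).mp (t_mem x _)
    have hsq : (g * x ^ (m₁ / 2) * g⁻¹) ^ 2 = 1 := by
      rw [conj_pow, t_sq h.m1even hx]
      simp
    have hne : g * x ^ (m₁ / 2) * g⁻¹ ≠ 1 := by
      intro h1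
      apply t_ne hm0 h.m1even hx
      have e : x ^ (m₁ / 2) = g⁻¹ * (g * x ^ (m₁ / 2) * g⁻¹) * g := by group
      rw [e, h1]
      group
    have h2 := hCyc G x _ m₁ hm0 h.m1even hx hg' hsq hne
    calc g * x ^ (m₁ / 2) = (g * x ^ (m₁ / 2) * g⁻¹) * g := by group
      _ = x ^ (m₁ / 2) * g := by rw [h2]
  · intro g hg
    have hK := hCT G p q m₁ m₂ h x hx
    obtain ⟨h1, -⟩ := hIdx2 G x _ m₁ hm0 h.m1even hx (x_mem_cent x _) hK
    have key : ∀ g' ∈ Subgroup.centralizer ({x ^ (m₁ / 2)} : Set G),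
        ∀ n ∈ Subgroup.zpowers x, g' * n * g'⁻¹ ∈ Subgroup.zpowers x := by
      intro g' hg' n hn
      obtain ⟨i, rfl⟩ := Subgroup.mem_zpowers_iff.mp hn
      rw [← conj_zpow]
      exact Subgroup.zpow_mem _ (h1 g' hg') i
    rw [Subgroup.mem_set_normalizer_iff]
    intro n
    constructor
    · exact key g hg n
    · intro hn
      have h3 := key g⁻¹ (Subgroup.inv_mem _ hg) _ hn
      have e : g⁻¹ * (g * n * g⁻¹) * g⁻¹⁻¹ = n := by group
      rw [e] at h3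
      exact h3

end Cfsg.Agent.Lib.Helper87.PSpCNB
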