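import Mathlib
import Cfsg.Agent.Lib.Helper98.PSpStmt
import Cfsg.Agent.Lib.Helper87.PSpCB

/-!
# S3421, piece CNC: for `m₁ > 2` the centraliser of the involution is self-normalising
-/

set_option autoImplicit false

namespace Cfsg.Agent.Lib.Helper87.PSpCNC

open Cfsg.Agent.Lib.Helper98 Cfsg.Agent.Lib.Helper87.PSpCB

universe u

/-- two elements outside a subgroup of index two differ by an element of it -/
theorem idx2_mul_inv_mem {G : Type u} [Group G] [Finite G] {B C : Subgroup G} (hBC : B ≤ C)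
    (hcard : Nat.card C = 2 * Nat.card B) {c₁ c₂ : G} (h1 : c₁ ∈ C) (h2 : c₂ ∈ C)
    (h1' : c₁ ∉ B) (h2' : c₂ ∉ B) : c₁ * c₂⁻¹ ∈ B := by
  have hrel : B.relIndex C = 2 := by
    have e1 := Subgroup.relIndex_mul_index hBC
    have e2 := B.card_mul_index
    have e3 := C.card_mul_index
    have hC0 : C.index ≠ 0 := Subgroup.index_ne_zero_of_finite
    have hB0 : Nat.card B ≠ 0 := Nat.card_pos.ne'
    have e4 : Nat.card B * (B.relIndex C * C.index) = Nat.card B * (2 * C.index) := by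
      rw [e1, e2, ← e3, hcard]
      ring
    have e5 := Nat.eq_of_mul_eq_mul_left (Nat.pos_of_ne_zero hB0) e4
    exact Nat.eq_of_mul_eq_mul_right (Nat.pos_of_ne_zero hC0) e5
  obtain ⟨a, -, hx⟩ := Subgroup.relIndex_eq_two_iff.mp hrel
  have k1 : c₁ * a ∈ B := by
    rcases hx c₁ h1 with ⟨h, -⟩ | ⟨h, -⟩
    · exact h
    · exact absurd h h1'
  have k2 : c₂ * a ∈ B := by
    rcases hx c₂ h2 with ⟨h, -⟩ | ⟨h, -⟩
    · exact h
    · exact absurd h h2'
  have e : c₁ * c₂⁻¹ = (c₁ * a) * (c₂ * a)⁻¹ := by group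
  rw [e]
  exact B.mul_mem k1 (B.inv_mem k2)

theorem main (hCT : PSpStmt.CT.{u}) (hCyc : PSpStmt.CycInv.{u}) (hCAB : PSpStmt.CAB.{u}) :
    PSpStmt.CNC.{u} := by
  intro G _ p q m₁ m₂ h hm x g hx hg
  have hfin := h.fin
  have hm0 : 0 < m₁ := by omega
  have hab := hCAB G p q m₁ m₂ h x hx
  have hCTx := hCT G p q m₁ m₂ h x hx
  have ht1 := t_ne hm0 h.m1even hx
  have ht2 := t_sq h.m1even hx
  have hBC : Subgroup.zpowers x ≤ Subgroup.centralizer ({x ^ (m₁ / 2)} : Set G) :=
    zp_le_cent (t_mem x _)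
  have hcy := hCyc G x
  obtain ⟨t, ht⟩ : ∃ t, t = x ^ (m₁ / 2) := ⟨_, rfl⟩
  rw [← ht] at hg hab hCTx ht1 ht2 hBC ⊢
  have htt : t ∈ Subgroup.centralizer ({t} : Set G) :=
    Subgroup.mem_centralizer_singleton_iff.mpr rfl
  have hu : g * t * g⁻¹ ∈ Subgroup.centralizer ({t} : Set G) :=
    (Subgroup.mem_set_normalizer_iff.mp hg t).mp htt
  have hsq : (g * t * g⁻¹) ^ 2 = 1 := by
    rw [conj_pow, ht2]
    simp
  have hne : g * t * g⁻¹ ≠ 1 := by
    intro h1
    apply ht1
    have e : t = g⁻¹ * (g * t * g⁻¹) * g := by group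
    rw [e, h1]
    group
  by_cases huB : g * t * g⁻¹ ∈ Subgroup.zpowers x
  · have h2 := hcy _ m₁ hm0 h.m1even hx huB hsq hne
    rw [← ht] at h2
    rw [Subgroup.mem_centralizer_singleton_iff]
    calc g * t = (g * t * g⁻¹) * g := by group
      _ = t * g := by rw [h2]
  · exfalso
    have hcard : Nat.card (Subgroup.centralizer ({t} : Set G)) =
        2 * Nat.card (Subgroup.zpowers x) := by
      rw [hCTx, Nat.card_zpowers, hx]
    have hucen : ∀ c ∈ Subgroup.centralizer ({t} : Set G), Commute c (g * t * g⁻¹) := by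
      intro c hc
      have h1 : g⁻¹ * c * g ∈ Subgroup.centralizer ({t} : Set G) := by
        apply (Subgroup.mem_set_normalizer_iff.mp hg (g⁻¹ * c * g)).mpr
        have e : g * (g⁻¹ * c * g) * g⁻¹ = c := by group
        rw [e]
        exact hc
      have h2 := Subgroup.mem_centralizer_singleton_iff.mp h1
      show c * (g * t * g⁻¹) = g * t * g⁻¹ * c
      calc c * (g * t * g⁻¹) = g * (g⁻¹ * c * g * t) * g⁻¹ := by group
        _ = g * (t * (g⁻¹ * c * g)) * g⁻¹ := by rw [h2]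
        _ = g * t * g⁻¹ * c := by group
    have hdec : ∀ c ∈ Subgroup.centralizer ({t} : Set G),
        ∃ b ∈ Subgroup.zpowers x, c = b ∨ c = b * (g * t * g⁻¹) := by
      intro c hc
      by_cases hcB : c ∈ Subgroup.zpowers x
      · exact ⟨c, hcB, Or.inl rfl⟩
      · exact ⟨c * (g * t * g⁻¹)⁻¹, idx2_mul_inv_mem hBC hcard hc hu hcB huB, Or.inr (by group)⟩
    have hcomm : ∀ a ∈ Subgroup.centralizer ({t} : Set G),
        ∀ b ∈ Subgroup.centralizer ({t} : Set G), a * b = b * a := by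
      intro a ha b hb
      obtain ⟨a', ha', ea⟩ := hdec a ha
      obtain ⟨b', hb', eb⟩ := hdec b hb
      have c1 : Commute a' b' := zp_comm ha' hb'
      have c2 : Commute a' (g * t * g⁻¹) := hucen a' (hBC ha')
      have c3 : Commute b' (g * t * g⁻¹) := hucen b' (hBC hb')
      rcases ea with rfl | rfl <;> rcases eb with rfl | rfl
      · exact c1.eq
      · exact (c1.mul_right c2).eq
      · exact (c1.mul_left c3.symm).eq
      · exact ((c1.mul_right c2).mul_left (c3.symm.mul_right (Commute.refl _))).eq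
    have := hab hcomm
    omega

end Cfsg.Agent.Lib.Helper87.PSpCNC
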