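import Mathlib
import Cfsg.Agent.Lib.Helper9.S51IStmt
import Cfsg.Agent.Lib.Helper76.S52CNE
import Cfsg.Agent.Lib.Helper60.BG14SIGDEC

/-!
# S1351 / ISECOND: in case (i), `H` carries a triple (assembly of L4, IFEX, IALPHA, IBETAN,
IBETAMOVE, IBETACENT)
-/

set_option autoImplicit false

namespace Cfsg.Agent.Lib.Helper87.S51ISECOND

universe u

open Cfsg Cfsg.Agent.Lib.Helper9.S51IStmt

theorem main : L4.{u} → IFEx.{u} → IAlpha.{u} → IBetaN.{u} → IBetaMove.{u} → IBetaCent.{u} →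
    ISecond.{u} := by
  intro hL4 hIFEx hIAlpha hIBetaN hIBetaMove hIBetaCent
  intro G _ _ hG M E R0 H r q z hCI hHS
  obtain ⟨F, hF, hzF, hCF⟩ := hIFEx hG M E R0 H r q z hCI hHS
  have hCne : CR M R0 ≠ ⊥ :=
    Cfsg.Agent.Lib.Helper76.S52CNE.main M R0 r hHS.hr hHS.hR0M hHS.hR0c
  -- an element of prime order in `C`
  obtain ⟨c, hcC, hcp⟩ : ∃ c ∈ CR M R0, (orderOf c).Prime := by
    have hcard : Nat.card ↥(CR M R0) ≠ 1 := by
      intro h
      exact hCne (Subgroup.card_eq_one.mp h)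
    obtain ⟨p, hp, hpd⟩ := Nat.exists_prime_and_dvd hcard
    haveI : Fact p.Prime := ⟨hp⟩
    obtain ⟨x, hx⟩ := exists_prime_orderOf_dvd_card' p hpd
    refine ⟨(x : G), x.2, ?_⟩
    rw [Subgroup.orderOf_coe, hx]; exact hp
  have hκ : ∀ c' ∈ CR M R0, (orderOf c').Prime →
      orderOf c' ∈ tau1 H ∨ orderOf c' ∈ tau3 H := by
    intro c' hc' hp'
    have hk := hL4 hG M R0 H r hHS c' hc' hp'
    have hrk := Cfsg.Agent.Lib.Helper60.BG14SIGDEC.pRankLE_one_of_kappa hk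
    obtain ⟨h1, h2, h3, -⟩ := hk
    by_cases hd : orderOf c' ∣ Nat.card ↥⁅H, H⁆
    · right; exact ⟨h1, h3, hd, hrk⟩
    · left; exact ⟨h1, h3, h2, hd, hrk⟩
  by_cases hex : ∃ c' ∈ CR M R0, (orderOf c').Prime ∧ orderOf c' ∈ tau1 H
  · obtain ⟨c', hc', hp', ht⟩ := hex
    exact ⟨F, c', orderOf c', hIAlpha hG M R0 H F r c' hHS hF (hCF hc') hc' ht⟩
  · have hall : ∀ c' ∈ CR M R0, (orderOf c').Prime → orderOf c' ∈ tau3 H := by
      intro c' hc' hp'
      rcases hκ c' hc' hp' with h | h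
      · exact absurd ⟨c', hc', hp', h⟩ hex
      · exact h
    obtain ⟨hN, hFM, hcF'⟩ :=
      hIBetaN hG M R0 H F r c hHS hF (hCF hcC) hcC (hall c hcC hcp)
    by_cases hzc : z * c = c * z
    · exact (hIBetaCent hG M E R0 H F r q z c hCI hHS hF hzF hCF hall hcC hcp hN hFM hcF'
        hzc).elim
    · exact ⟨F, z, q, hIBetaMove hG M E R0 H F r q z c hCI hHS hF hzF (hCF hcC) hcC
        (hall c hcC hcp) hN hFM hzc⟩

end Cfsg.Agent.Lib.Helper87.S51ISECOND
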