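import Mathlib
import Cfsg.Agent.Lib.Helper22.S56Stmt
import Cfsg.Agent.Lib.Helper31.CoprimeGen

/-!
S1356 piece LIFT: a `q'`-group acting trivially on `O / N` (`N` of non-generators of the normal
`q`-group `O`) centralizes `O`.
-/

set_option autoImplicit false

namespace Cfsg.Agent.Lib.Helper87.S56LIFT

universe u

open Cfsg.Agent.Lib.Helper22.S56Stmt

theorem main : Lift.{u} := by
  intro X _ _ O N A hOn hNn q hq hOq hNO hgen hAq hact
  have hqp : q.Prime := hq.out
  have key : ∀ n : ℕ, ∀ a ∈ A, orderOf a = n → ∀ o ∈ O, a * o = o * a := by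
    intro n
    induction n using Nat.strong_induction_on with
    | _ n ih =>
      intro a haA han
      by_cases ha1 : a = 1
      · intro o _
        rw [ha1, one_mul, mul_one]
      have hn1 : orderOf a ≠ 1 := fun h => ha1 (orderOf_eq_one_iff.mp h)
      obtain ⟨r, hr, hrd⟩ := Nat.exists_prime_and_dvd hn1
      haveI : Fact r.Prime := ⟨hr⟩
      have hrq : r ≠ q := by
        intro h
        have h1 : orderOf a ∣ Nat.card A := Subgroup.orderOf_dvd_natCard A haA
        have h2 : q ∣ Nat.card A := h ▸ (hrd.trans h1)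
        have h3 := Nat.Coprime.eq_one_of_dvd hAq.symm h2
        exact hqp.one_lt.ne' h3
      have hbA : a ^ r ∈ A := A.pow_mem haA r
      have hbord : orderOf (a ^ r) < n := by
        rw [orderOf_pow' a hr.ne_zero, Nat.gcd_eq_right hrd, han]
        exact Nat.div_lt_self (by rw [← han]; exact orderOf_pos a) hr.one_lt
      have hb : ∀ o ∈ O, a ^ r * o = o * a ^ r := ih _ hbord (a ^ r) hbA rfl
      have hφ : (MulAut.conjNormal a : MulAut ↥O) ^ r = 1 := by
        rw [← map_pow]
        apply MulEquiv.ext
        intro w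
        apply Subtype.ext
        rw [MulAut.conjNormal_apply, MulAut.one_apply, hb w w.2]
        group
      have hNcard : ¬ r ∣ Nat.card (N.subgroupOf O) := by
        have hNq : IsPGroup q (N.subgroupOf O) := hOq.to_subgroup _
        obtain ⟨k, hk⟩ := hNq.exists_card_eq
        rw [hk]
        intro h
        exact hrq ((Nat.prime_dvd_prime_iff_eq hr hqp).mp (hr.dvd_of_dvd_pow h))
      have hφN : ∀ w ∈ N.subgroupOf O,
          (MulAut.conjNormal a : MulAut ↥O) w ∈ N.subgroupOf O := by
        intro w hw
        rw [Subgroup.mem_subgroupOf] at hw ⊢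
        rw [MulAut.conjNormal_apply]
        exact hNn.conj_mem _ hw a
      have hS : O ≤ O ⊓ Subgroup.centralizer ({a} : Set X) := by
        apply hgen _ inf_le_left
        intro o ho
        have hx : (⟨o, ho⟩ : ↥O)⁻¹ * (MulAut.conjNormal a : MulAut ↥O) ⟨o, ho⟩ ∈
            N.subgroupOf O := by
          rw [Subgroup.mem_subgroupOf]
          simp only [Subgroup.coe_mul, Subgroup.coe_inv, MulAut.conjNormal_apply]
          have h1 := hNn.conj_mem _ (hact a haA o ho) o⁻¹
          have h2 : o⁻¹ * (a * o * a⁻¹ * o⁻¹) * o⁻¹⁻¹ = o⁻¹ * (a * o * a⁻¹) := by group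
          rw [h2] at h1
          exact h1
        obtain ⟨w, hw, hfix⟩ := Cfsg.Agent.Lib.Helper31.CoprimeGen.exists_fixed_in_coset
          (MulAut.conjNormal a : MulAut ↥O) hφ (N.subgroupOf O) hNcard hφN ⟨o, ho⟩ hx
        have h3 : a * (o * (w : X)) * a⁻¹ = o * (w : X) := by
          have h4 := congrArg Subtype.val hfix
          rw [MulAut.conjNormal_apply] at h4
          simpa using h4
        have hwN : (w : X) ∈ N := Subgroup.mem_subgroupOf.mp hw
        have hmem : o * (w : X) ∈ O ⊓ Subgroup.centralizer ({a} : Set X) := by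
          refine Subgroup.mem_inf.mpr ⟨O.mul_mem ho w.2, ?_⟩
          rw [Subgroup.mem_centralizer_singleton_iff]
          calc o * (w : X) * a = a * (o * (w : X)) * a⁻¹ * a := by rw [h3]
            _ = a * (o * (w : X)) := by group
        have h5 : o = (o * (w : X)) * (w : X)⁻¹ := by group
        rw [h5]
        exact Subgroup.mul_mem_sup hmem (N.inv_mem hwN)
      intro o ho
      exact ((Subgroup.mem_centralizer_singleton_iff).mp (hS ho).2).symm
  intro a haA
  rw [Subgroup.mem_centralizer_iff]
  intro o ho
  exact (key _ a haA rfl o ho).symm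

end Cfsg.Agent.Lib.Helper87.S56LIFT
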